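import Cfsg.Agent.Lib.OddLocal.Rank2F
import Cfsg.Agent.Lib.Components.Local2
import Cfsg.Agent.Lib.LocalEven.Basic

/-!
# Bender's lemma on maximal subgroups: the local part

`S` is subnormal in `F*(Y)` with `C_{F*(Y)}(S) ≤ S`.
-/

set_option autoImplicit false

namespace Cfsg.Agent.Lib.TwoFusion

open Cfsg Cfsg.Agent.Lib.Components Cfsg.Agent.Lib.OddLocal Subgroup
open scoped commutatorElement

variable {Y : Type*} [Group Y] [Finite Y]

/-- The standing hypothesis of Bender's lemma. -/
structure BenderSetup (S : Subgroup Y) : Prop where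
  le : S ≤ generalizedFittingSubgroup Y
  sn : (S.subgroupOf (generalizedFittingSubgroup Y)).IsSubnormal
  cent : generalizedFittingSubgroup Y ⊓ centralizer (S : Set Y) ≤ S

variable {S : Subgroup Y}

theorem BenderSetup.layer_le (h : BenderSetup S) : layer Y ≤ S := by
  refine Cfsg.Agent.Lib.Components.layer_le fun K hK => ?_
  have hK' := component_subgroupOf hK (component_le_gfit hK)
  rcases component_le_or_commute hK' h.sn with h1 | h1
  · intro k hk
    have h2 := h1 (mem_subgroupOf.mpr hk : (⟨k, component_le_gfit hK hk⟩ : ↥(generalizedFittingSubgroup Y)) ∈ K.subgroupOf _)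
    exact mem_subgroupOf.mp h2
  · intro k hk
    apply h.cent
    refine ⟨component_le_gfit hK hk, ?_⟩
    show k ∈ centralizer (S : Set Y)
    rw [mem_centralizer_iff]
    intro s hs
    have h3 : ⁅(⟨k, component_le_gfit hK hk⟩ : ↥(generalizedFittingSubgroup Y)), (⟨s, h.le hs⟩ : ↥(generalizedFittingSubgroup Y))⁆ = 1 := by
      have := commutator_mem_commutator (H₁ := K.subgroupOf (generalizedFittingSubgroup Y)) (H₂ := S.subgroupOf (generalizedFittingSubgroup Y))
        (g₁ := ⟨k, component_le_gfit hK hk⟩) (g₂ := ⟨s, h.le hs⟩) (mem_subgroupOf.mpr hk) (mem_subgroupOf.mpr hs)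
      rw [h1] at this
      exact this
    have h4 := congrArg Subtype.val (commutatorElement_eq_one_iff_mul_comm.mp h3)
    exact h4.symm

/-- Decomposition of an element of `F*`. -/
theorem exists_gfit_decomp (r : ℕ) [Fact r.Prime] {s : Y} (hs : s ∈ generalizedFittingSubgroup Y) :
    ∃ e ∈ layer Y, ∃ f ∈ fittingSubgroup Y, s = e * f ∧ ∃ u v, f = u * v ∧ u ∈ zpowers f ∧ v ∈ zpowers f ∧
      u ∈ pCore r Y ∧ (orderOf v).Coprime r := by
  unfold generalizedFittingSubgroup at hs
  haveI := fitting_normal (G := Y)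
  rw [mem_sup_of_normal_right] at hs
  obtain ⟨e, he, f, hf, rfl⟩ := hs
  refine ⟨e, he, f, hf, rfl, ?_⟩
  obtain ⟨u, v, huv, hu, hv, ⟨k, huk⟩, hvc, -⟩ := Cfsg.Agent.Lib.LocalEven.exists_p_decomp (p := r) f (isOfFinOrder_of_finite f)
  refine ⟨u, v, huv, hu, hv, ?_, hvc⟩
  have hu' : u ∈ fittingSubgroup Y := (zpowers_le.mpr hf) hu
  exact mem_pCore_of_fitting r hu' k (by rw [← huk]; exact pow_orderOf_eq_one u)

theorem comm_of_pCore_layer {r : ℕ} [Fact r.Prime] {x e : Y} (hx : x ∈ pCore r Y) (he : e ∈ layer Y) : x * e = e * x := by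
  have h1 := layer_le_centralizer_fitting he
  have h2 := mem_centralizer_iff.mp h1 x (Cfsg.Agent.Lib.Basic.pCore_le_fittingSubgroup r hx)
  exact h2

theorem comm_of_pCore_coprime {r : ℕ} [Fact r.Prime] {x v : Y} (hx : x ∈ pCore r Y) (hv : v ∈ fittingSubgroup Y)
    (hc : (orderOf v).Coprime r) : x * v = v * x := by
  apply comm_of_coprime_of_nilpotent_subgroup fitting_isNilpotent (Cfsg.Agent.Lib.Basic.pCore_le_fittingSubgroup r hx) hv
  obtain ⟨k, hk⟩ := (Cfsg.Agent.Lib.Basic.pCore_isPGroup (G := Y) r) ⟨x, hx⟩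
  have : orderOf x ∣ r ^ k := by
    apply orderOf_dvd_of_pow_eq_one
    have := congrArg Subtype.val hk
    simpa using this
  exact ((Nat.Coprime.coprime_dvd_left this (Nat.Coprime.pow_left k hc.symm))).symm.symm

/-- An element of `O_r(Y)` commuting with `S ∩ O_r(Y)` lies in `S`. -/
theorem BenderSetup.mem_of_commute (h : BenderSetup S) {r : ℕ} [Fact r.Prime] {x : Y} (hx : x ∈ pCore r Y)
    (hc : ∀ b ∈ S ⊓ pCore r Y, b * x = x * b) : x ∈ S := by
  apply h.cent
  refine ⟨fitting_le_gfit (Cfsg.Agent.Lib.Basic.pCore_le_fittingSubgroup r hx), ?_⟩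
  show x ∈ centralizer (S : Set Y)
  rw [mem_centralizer_iff]
  intro s hs
  obtain ⟨e, he, f, hf, rfl, u, v, rfl, hu, hv, huO, hvc⟩ := exists_gfit_decomp r (h.le hs)
  have heS : e ∈ S := h.layer_le he
  have hfS : u * v ∈ S := by
    have := S.mul_mem (S.inv_mem heS) hs
    simpa using this
  have huS : u ∈ S := (zpowers_le.mpr hfS) hu
  have hvF : v ∈ fittingSubgroup Y := (zpowers_le.mpr hf) hv
  have c1 := comm_of_pCore_layer hx he
  have c2 := hc u ⟨huS, huO⟩
  have c3 := comm_of_pCore_coprime hx hvF hvc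
  calc e * (u * v) * x = e * (u * (v * x)) := by group
    _ = e * (u * (x * v)) := by rw [c3]
    _ = e * (x * u * v) := by rw [← mul_assoc u, c2]
    _ = (x * e) * u * v := by rw [c1]; group
    _ = x * (e * (u * v)) := by group

/-- The centre of `O_r(Y)` commutes with `F*(Y)`. -/
theorem comm_gfit_of_center {r : ℕ} [Fact r.Prime] {x : Y} (hx : x ∈ pCore r Y)
    (hc : ∀ b ∈ pCore r Y, b * x = x * b) {s : Y} (hs : s ∈ generalizedFittingSubgroup Y) : s * x = x * s := by
  obtain ⟨e, he, f, hf, rfl, u, v, rfl, hu, hv, huO, hvc⟩ := exists_gfit_decomp r hs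
  have hvF : v ∈ fittingSubgroup Y := (zpowers_le.mpr hf) hv
  have c1 := comm_of_pCore_layer hx he
  have c2 := hc u huO
  have c3 := comm_of_pCore_coprime hx hvF hvc
  calc e * (u * v) * x = e * (u * (v * x)) := by group
    _ = e * (u * (x * v)) := by rw [c3]
    _ = e * (x * u * v) := by rw [← mul_assoc u, c2]
    _ = (x * e) * u * v := by rw [c1]; group
    _ = x * (e * (u * v)) := by group

/-- A `p`-subgroup normalised by `S` centralises the layer. -/
theorem BenderSetup.comm_layer (h : BenderSetup S) {X : Subgroup Y} (hsol : Group.IsSolvable X)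
    (hN : S ≤ normalizer (X : Set Y)) {e x : Y} (he : e ∈ layer Y) (hx : x ∈ X) : x * e = e * x := by
  have hle : layer Y ≤ centralizer (X : Set Y) := by
    refine Cfsg.Agent.Lib.Components.layer_le fun K hK => ?_
    rw [← commutator_eq_bot_iff_le_centralizer]
    exact component_commute_of_solvable hK hsol ((component_le_layer hK).trans (h.layer_le.trans hN))
  exact mem_centralizer_iff.mp (hle he) x hx

/-- `[X, S ∩ O_r] = 1` if `X` is an `s`-group normalised by `S`, `s ≠ r`. -/
theorem comm_of_normalised {X T : Subgroup Y} [T.Normal] (hX : X ≤ normalizer (X : Set Y))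
    (hXT : X ⊓ T = ⊥) {a b : Y} (ha : a ∈ X) (hb : b ∈ T) (hbX : b ∈ normalizer (X : Set Y)) : a * b = b * a := by
  have h1 : ⁅a, b⁆ ∈ X := by
    rw [commutatorElement_def]
    have := (mem_normalizer_iff.mp hbX a⁻¹).mp (X.inv_mem ha)
    have h2 := X.mul_mem ha this
    simpa [mul_assoc] using h2
  have h2 : ⁅a, b⁆ ∈ T := by
    rw [commutatorElement_def]
    have := ‹T.Normal›.conj_mem _ hb a
    have h3 := T.mul_mem this (T.inv_mem hb)
    simpa [mul_assoc] using h3
  have h3 : ⁅a, b⁆ ∈ X ⊓ T := ⟨h1, h2⟩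
  rw [hXT, mem_bot] at h3
  exact commutatorElement_eq_one_iff_mul_comm.mp h3

/-- `X` centralises `O_r(Y)` for `r` different from the prime of `X`. -/
theorem BenderSetup.comm_pCore (h : BenderSetup S) {p r : ℕ} [Fact p.Prime] [Fact r.Prime] (hrp : r ≠ p) {X : Subgroup Y}
    (hX : IsPGroup p X) (hN : S ≤ normalizer (X : Set Y)) {a x : Y} (ha : a ∈ X) (hx : x ∈ pCore r Y) : a * x = x * a := by
  have hXT : X ⊓ pCore r Y = ⊥ := by
    have hO := Cfsg.Agent.Lib.Basic.pCore_isPGroup (G := Y) r
    have hcop : (Nat.card ↥X).Coprime (Nat.card ↥(pCore r Y)) := by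
      obtain ⟨m, hm⟩ := IsPGroup.iff_card.mp hX
      obtain ⟨n, hn⟩ := IsPGroup.iff_card.mp hO
      rw [hm, hn]
      exact Nat.Coprime.pow _ _ ((Nat.coprime_primes Fact.out Fact.out).mpr hrp.symm)
    exact disjoint_iff.mp (Subgroup.disjoint_of_coprime_natCard hcop)
  have hnr : pCore r Y ≤ normalizer (pCore r Y : Set Y) := le_normalizer
  haveI := Cfsg.Agent.Lib.Basic.pCore_normal (G := Y) r
  have hAB : ∀ a ∈ X, ∀ b ∈ S ⊓ pCore r Y, a * b = b * a := fun a ha b hb =>
    comm_of_normalised (X := X) (T := pCore r Y) le_normalizer hXT ha hb.2 (hN hb.1)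
  have key := thompson_AxB r (pCore r Y) X (S ⊓ pCore r Y) (Cfsg.Agent.Lib.Basic.pCore_isPGroup r)
    ((Cfsg.Agent.Lib.Basic.pCore_isPGroup r).to_le inf_le_right) (by
      obtain ⟨m, hm⟩ := IsPGroup.iff_card.mp hX
      rw [hm]
      exact Nat.Coprime.pow_left _ ((Nat.coprime_primes Fact.out Fact.out).mpr hrp.symm))
    (by rw [normalizer_eq_top]; exact le_top) (inf_le_right.trans hnr) hAB (by
      intro a ha x hx hc
      have hxS := h.mem_of_commute hx hc
      exact hAB a ha x ⟨hxS, hx⟩)
  exact (mem_centralizer_iff.mp (key ha) x hx).symm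

/-- `X` centralises the `p'`-elements of `F*(Y)`. -/
theorem BenderSetup.comm_coprime (h : BenderSetup S) {p : ℕ} [Fact p.Prime] {X : Subgroup Y}
    (hX : IsPGroup p X) (hN : S ≤ normalizer (X : Set Y)) {x y : Y} (hx : x ∈ X)
    (hy : y ∈ generalizedFittingSubgroup Y) (hyc : (orderOf y).Coprime p) : x * y = y * x := by
  have hsol : Group.IsSolvable X := by
    haveI := hX.isNilpotent
    infer_instance
  unfold generalizedFittingSubgroup at hy
  haveI := fitting_normal (G := Y)
  rw [mem_sup_of_normal_right] at hy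
  obtain ⟨e, he, f, hf, rfl⟩ := hy
  have hf' := fitting_le_sup_fitOff p hf
  rw [mem_sup_of_normal_right] at hf'
  obtain ⟨α, hα, β, hβ, rfl⟩ := hf'
  have hβC : β ∈ centralizer ({x} : Set Y) := by
    have : fitOff p Y ≤ centralizer ({x} : Set Y) := by
      apply fitOff_le_of
      intro s hs hsp u hu
      haveI : Fact s.Prime := ⟨hs⟩
      rw [mem_centralizer_iff]
      rintro _ rfl
      exact h.comm_pCore hsp hX hN hx hu
    exact this hβ
  have hxβ : x * β = β * x := mem_centralizer_iff.mp hβC x rfl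
  have hxe := h.comm_layer hsol hN he hx
  have cαe : α * e = e * α := comm_of_pCore_layer hα he
  have hcop : (Nat.card ↥(pCore p Y)).Coprime (Nat.card ↥(pPrimeCore p Y)) := by
    obtain ⟨k, hk⟩ := (Cfsg.Agent.Lib.Basic.pCore_isPGroup (G := Y) p).exists_card_eq
    rw [hk]
    exact Nat.Coprime.pow_left _ (Cfsg.Agent.Lib.Basic.pPrimeCore_coprime p).symm
  have cαβ : α * β = β * α := comm_of_normal_coprime hcop hα (fitOff_le_pPrimeCore p hβ)
  have hyeq : e * (α * β) = α * (e * β) := by
    rw [← mul_assoc, ← cαe, mul_assoc]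
  have hcomm : Commute α (e * β) := by
    show α * (e * β) = e * β * α
    rw [← mul_assoc, cαe, mul_assoc, cαβ, mul_assoc]
  obtain ⟨k, hk⟩ := (Cfsg.Agent.Lib.Basic.pCore_isPGroup (G := Y) p) ⟨α, hα⟩
  have hk' : α ^ p ^ k = 1 := by
    have := congrArg Subtype.val hk
    simpa using this
  have h1 : (e * (α * β)) ^ p ^ k = (e * β) ^ p ^ k := by
    rw [hyeq, hcomm.mul_pow, hk', one_mul]
  have hxc : Commute x (e * β) := by
    show x * (e * β) = e * β * x
    rw [← mul_assoc, hxe, mul_assoc, hxβ, mul_assoc]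
  have h2 : Commute x ((e * (α * β)) ^ p ^ k) := by
    rw [h1]
    exact hxc.pow_right _
  obtain ⟨m, hm⟩ := exists_pow_eq_self_of_coprime (n := p ^ k) (x := e * (α * β))
    (Nat.Coprime.pow_left _ hyc.symm)
  have h3 : Commute x ((((e * (α * β)) ^ p ^ k)) ^ m) := h2.pow_right _
  rw [hm] at h3
  exact h3

/-- Central elements of `F*` lie in the Fitting subgroup. -/
theorem mem_fitting_of_comm_gfit {x : Y} (hx : ∀ s ∈ generalizedFittingSubgroup Y, x * s = s * x) :
    x ∈ fittingSubgroup Y := by
  have hxg : x ∈ generalizedFittingSubgroup Y := by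
    apply centralizer_gfit_le
    rw [mem_centralizer_iff]
    intro s hs
    exact (hx s hs).symm
  let N : Subgroup Y := generalizedFittingSubgroup Y ⊓ centralizer (generalizedFittingSubgroup Y : Set Y)
  haveI hNn : N.Normal := by
    show (generalizedFittingSubgroup Y ⊓ centralizer (generalizedFittingSubgroup Y : Set Y)).Normal
    infer_instance
  have hcomm : ∀ a b : ↥N, a * b = b * a := by
    intro a b
    apply Subtype.ext
    exact mem_centralizer_iff.mp a.2.2 b.1 b.2.1 |>.symm
  letI : CommGroup ↥N := { (inferInstance : Group ↥N) with mul_comm := hcomm }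
  have hnil : Group.IsNilpotent ↥N := inferInstance
  have hle := Cfsg.Agent.Lib.Basic.le_fittingSubgroup_of_nilpotent hNn hnil
  apply hle
  refine ⟨hxg, ?_⟩
  show x ∈ centralizer (generalizedFittingSubgroup Y : Set Y)
  rw [mem_centralizer_iff]
  intro s hs
  exact (hx s hs).symm

/-- Part (a) of Bender's lemma. -/
theorem BenderSetup.eq_bot (h : BenderSetup S) {q : ℕ} [Fact q.Prime] (hq : ¬ q ∣ Nat.card (fittingSubgroup Y))
    {X : Subgroup Y} (hX : IsPGroup q X) (hN : S ≤ normalizer (X : Set Y)) : X = ⊥ := by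
  have hsol : Group.IsSolvable X := by
    haveI := hX.isNilpotent
    infer_instance
  have hO : pCore q Y = ⊥ := by
    have h1 : Nat.card ↥(pCore q Y) ∣ Nat.card (fittingSubgroup Y) :=
      Subgroup.card_dvd_of_le (Cfsg.Agent.Lib.Basic.pCore_le_fittingSubgroup q)
    obtain ⟨k, hk⟩ := (Cfsg.Agent.Lib.Basic.pCore_isPGroup (G := Y) q).exists_card_eq
    rw [hk] at h1
    rcases k with _ | k
    · rw [pow_zero] at hk
      exact Subgroup.eq_bot_of_card_eq _ hk
    · exact absurd ((dvd_pow_self q (by omega)).trans h1) hq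
  rw [eq_bot_iff]
  intro x hx
  rw [mem_bot]
  have hxs : ∀ s ∈ generalizedFittingSubgroup Y, x * s = s * x := by
    intro s hs
    unfold generalizedFittingSubgroup at hs
    haveI := fitting_normal (G := Y)
    rw [mem_sup_of_normal_right] at hs
    obtain ⟨e, he, f, hf, rfl⟩ := hs
    have hf' := fitting_le_sup_fitOff q hf
    rw [hO, bot_sup_eq] at hf'
    have hfC : f ∈ centralizer ({x} : Set Y) := by
      have : fitOff q Y ≤ centralizer ({x} : Set Y) := by
        apply fitOff_le_of
        intro s hs hsp u hu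
        haveI : Fact s.Prime := ⟨hs⟩
        rw [mem_centralizer_iff]
        rintro _ rfl
        exact h.comm_pCore hsp hX hN hx hu
      exact this hf'
    have hxf : x * f = f * x := mem_centralizer_iff.mp hfC x rfl
    have hxe := h.comm_layer hsol hN he hx
    rw [← mul_assoc, hxe, mul_assoc, hxf, mul_assoc]
  have hxF := mem_fitting_of_comm_gfit hxs
  obtain ⟨k, hk⟩ := hX ⟨x, hx⟩
  have hk' : x ^ q ^ k = 1 := by
    have := congrArg Subtype.val hk
    simpa using this
  have := mem_pCore_of_fitting q hxF k hk'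
  rwa [hO, mem_bot] at this

/-- A nontrivial `p'`-element in `F*` gives one in a normal subgroup of `Y` inside `S`. -/
theorem BenderSetup.exists_normal_pprime (h : BenderSetup S) {p : ℕ} [Fact p.Prime] {y₀ : Y}
    (hy₀ : y₀ ∈ generalizedFittingSubgroup Y) (hne : y₀ ≠ 1) (hyc : (orderOf y₀).Coprime p) :
    ∃ T : Subgroup Y, T.Normal ∧ T ≤ S ∧ ∃ y₁ ∈ T, y₁ ≠ 1 ∧ (orderOf y₁).Coprime p := by
  by_cases hE : layer Y = ⊥
  · rw [gfit_eq_fitting_of_layer_eq_bot hE] at hy₀
    -- some `O_r(Y)`, `r ≠ p` is nontrivial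
    have hex : ∃ r : ℕ, r.Prime ∧ r ≠ p ∧ pCore r Y ≠ ⊥ := by
      by_contra hcon
      push Not at hcon
      have hoff : fitOff p Y = ⊥ := by
        rw [eq_bot_iff]
        apply fitOff_le_of
        intro s hs hsp
        rw [hcon s hs hsp]
      have h1 := fitting_le_sup_fitOff p hy₀
      rw [hoff, sup_bot_eq] at h1
      obtain ⟨k, hk⟩ := (Cfsg.Agent.Lib.Basic.pCore_isPGroup (G := Y) p) ⟨y₀, h1⟩
      have hk' : y₀ ^ p ^ k = 1 := by
        have := congrArg Subtype.val hk
        simpa using this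
      have h2 : orderOf y₀ ∣ p ^ k := orderOf_dvd_of_pow_eq_one hk'
      have h3 : orderOf y₀ = 1 := Nat.eq_one_of_dvd_coprimes (Nat.Coprime.pow_right k hyc) dvd_rfl h2
      exact hne (orderOf_eq_one_iff.mp h3)
    obtain ⟨r, hr, hrp, hO⟩ := hex
    haveI : Fact r.Prime := ⟨hr⟩
    haveI := Cfsg.Agent.Lib.Basic.pCore_normal (G := Y) r
    have hP := Cfsg.Agent.Lib.Basic.pCore_isPGroup (G := Y) r
    haveI : Nontrivial ↥(pCore r Y) := (Subgroup.nontrivial_iff_ne_bot _).mpr hO
    haveI := hP.center_nontrivial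
    obtain ⟨z, hz⟩ := exists_ne (1 : ↥(center ↥(pCore r Y)))
    refine ⟨pCore r Y ⊓ centralizer (pCore r Y : Set Y), inferInstance, ?_, (z : ↥(pCore r Y)).1, ⟨(z : ↥(pCore r Y)).2, ?_⟩, ?_, ?_⟩
    · rintro w ⟨hw1, hw2⟩
      apply h.mem_of_commute hw1
      rintro b ⟨-, hb⟩
      exact (mem_centralizer_iff.mp hw2 b hb)
    · show (z : ↥(pCore r Y)).1 ∈ centralizer (pCore r Y : Set Y)
      rw [mem_centralizer_iff]
      intro b hb
      have := (mem_center_iff.mp z.2) ⟨b, hb⟩
      exact congrArg Subtype.val this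
    · intro h0
      apply hz
      apply Subtype.ext
      apply Subtype.ext
      exact h0
    · obtain ⟨k, hk⟩ := hP (z : ↥(pCore r Y))
      have hk' : ((z : ↥(pCore r Y)).1) ^ r ^ k = 1 := by
        have := congrArg Subtype.val hk
        simpa using this
      have h2 : orderOf (z : ↥(pCore r Y)).1 ∣ r ^ k := orderOf_dvd_of_pow_eq_one hk'
      exact Nat.Coprime.coprime_dvd_left h2 (Nat.Coprime.pow_left _ ((Nat.coprime_primes hr Fact.out).mpr hrp))
  · -- a component
    have hex : ∃ K : Subgroup Y, IsComponent K := by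
      by_contra hcon
      push Not at hcon
      apply hE
      rw [eq_bot_iff]
      apply Cfsg.Agent.Lib.Components.layer_le
      intro L hL
      exact absurd hL (hcon L)
    obtain ⟨K, hK⟩ := hex
    have hnp : ¬ IsPGroup p K := by
      intro hp
      haveI := hp.isNilpotent
      exact qs_not_solvable hK.2 inferInstance
    -- a prime `r ≠ p` divides `|K|`
    have hr : ∃ r : ℕ, r.Prime ∧ r ≠ p ∧ r ∣ Nat.card K := by
      by_contra hcon
      push Not at hcon
      apply hnp
      rw [IsPGroup.iff_card]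
      have hpos : Nat.card K ≠ 0 := Nat.card_pos.ne'
      refine ⟨(Nat.card K).primeFactorsList.length, ?_⟩
      apply Nat.eq_prime_pow_of_unique_prime_dvd hpos
      intro d hd hdvd
      by_contra hne
      exact hcon d hd hne hdvd
    obtain ⟨r, hr, hrp, hdvd⟩ := hr
    haveI : Fact r.Prime := ⟨hr⟩
    obtain ⟨w, hw⟩ := exists_prime_orderOf_dvd_card' r hdvd
    refine ⟨layer Y, inferInstance, h.layer_le, w.1, component_le_layer hK w.2, ?_, ?_⟩
    · intro h0
      have : w = 1 := Subtype.ext h0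
      rw [this, orderOf_one] at hw
      exact hr.one_lt.ne hw
    · rw [Subgroup.orderOf_coe, hw]
      exact (Nat.coprime_primes hr Fact.out).mpr hrp

/-- Part (b) of Bender's lemma. -/
theorem BenderSetup.part_b {G : Type*} [Group G] [Finite G] [IsSimpleGroup G] {A : Subgroup G} (hA : IsCoatom A)
    {S : Subgroup A} (h : BenderSetup S) {p : ℕ} [Fact p.Prime] (hp : p ∣ Nat.card (fittingSubgroup A))
    (P : Subgroup G) (hP : IsPGroup p P) (hN : S.map A.subtype ≤ normalizer (P : Set G))
    {x : G} {y : A} (hx : x ∈ P) (hy : y ∈ generalizedFittingSubgroup A) (hyc : (orderOf y).Coprime p) :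
    x * (y : G) = (y : G) * x := by
  by_cases hy1 : y = 1
  · simp [hy1]
  -- normalizers of normal subgroups of `A`
  have hnorm : ∀ W : Subgroup A, W.Normal → W ≠ ⊥ → normalizer ((W.map A.subtype : Subgroup G) : Set G) = A := by
    intro W hW hne
    have hle : A ≤ normalizer ((W.map A.subtype : Subgroup G) : Set G) := by
      intro a ha
      rw [mem_normalizer_iff]
      intro g
      constructor
      · rintro ⟨w, hw, rfl⟩
        exact ⟨_, hW.conj_mem w hw ⟨a, ha⟩, rfl⟩
      · rintro ⟨w, hw, hwe⟩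
        have h1 := hW.conj_mem w hw (⟨a, ha⟩ : A)⁻¹
        refine ⟨_, h1, ?_⟩
        have hwe' : g = a⁻¹ * (w : G) * a := by
          have : a * g * a⁻¹ = (w : G) := hwe.symm
          rw [← this]
          group
        rw [hwe']
        simp
    rcases hA.le_iff.mp hle with h1 | h1
    · exfalso
      have hnn : (W.map A.subtype).Normal := normalizer_eq_top_iff.mp h1
      rcases hnn.eq_bot_or_eq_top with h2 | h2
      · apply hne
        have := (map_eq_bot_iff_of_injective W A.subtype_injective).mp h2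
        exact this
      · apply hA.1
        rw [eq_top_iff, ← h2]
        exact map_subtype_le W
    · exact h1
  -- the centre of `O_p(A)`
  have hOne : pCore p A ≠ ⊥ := by
    obtain ⟨w, hw⟩ := exists_prime_orderOf_dvd_card' p hp
    intro hbot
    have h1 : (w : A) ∈ pCore p A := mem_pCore_of_fitting p w.2 1 (by
      rw [pow_one, ← hw]
      have h0 := pow_orderOf_eq_one w
      exact congrArg Subtype.val h0)
    rw [hbot, mem_bot] at h1
    have : w = 1 := Subtype.ext h1
    rw [this, orderOf_one] at hw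
    exact (Fact.out : p.Prime).one_lt.ne hw
  haveI := Cfsg.Agent.Lib.Basic.pCore_normal (G := A) p
  have hOP := Cfsg.Agent.Lib.Basic.pCore_isPGroup (G := A) p
  let ZZ : Subgroup A := pCore p A ⊓ centralizer (pCore p A : Set A)
  have hZZn : ZZ.Normal := by
    show (pCore p A ⊓ centralizer (pCore p A : Set A)).Normal
    infer_instance
  have hZZne : ZZ ≠ ⊥ := by
    haveI : Nontrivial ↥(pCore p A) := (Subgroup.nontrivial_iff_ne_bot _).mpr hOne
    haveI := hOP.center_nontrivial
    obtain ⟨z, hz⟩ := exists_ne (1 : ↥(center ↥(pCore p A)))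
    intro hbot
    have h1 : (z : ↥(pCore p A)).1 ∈ ZZ := by
      refine ⟨(z : ↥(pCore p A)).2, ?_⟩
      show (z : ↥(pCore p A)).1 ∈ centralizer (pCore p A : Set A)
      rw [mem_centralizer_iff]
      intro b hb
      have := (mem_center_iff.mp z.2) ⟨b, hb⟩
      exact congrArg Subtype.val this
    rw [hbot, mem_bot] at h1
    apply hz
    apply Subtype.ext
    apply Subtype.ext
    exact h1
  have hZZS : ZZ ≤ S := by
    rintro w ⟨hw1, hw2⟩
    apply h.mem_of_commute hw1
    rintro b ⟨-, hb⟩
    exact (mem_centralizer_iff.mp hw2 b hb)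
  have hZZc : ∀ z ∈ ZZ, ∀ s ∈ generalizedFittingSubgroup A, s * z = z * s := by
    rintro z ⟨hz1, hz2⟩ s hs
    exact comm_gfit_of_center hz1 (fun b hb => mem_centralizer_iff.mp hz2 b hb) hs
  -- X
  let X : Subgroup A := P.subgroupOf A
  have hXp : IsPGroup p X := Cfsg.Agent.Lib.Components.isPGroup_subgroupOf hP
  have hXN : S ≤ normalizer (X : Set A) := by
    intro s hs
    rw [mem_normalizer_iff]
    intro g
    have h1 := mem_normalizer_iff.mp (hN ⟨s, hs, rfl⟩) (g : G)
    show g ∈ P.subgroupOf A ↔ s * g * s⁻¹ ∈ P.subgroupOf A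
    rw [mem_subgroupOf, mem_subgroupOf]
    simpa using h1
  -- step A
  have stepA : ∀ a ∈ S, (orderOf a).Coprime p → ∀ x ∈ P, x * (a : G) = (a : G) * x := by
    intro a haS hac x hx
    have hac' : (orderOf (a : G)).Coprime p := by rwa [Subgroup.orderOf_coe]
    have key := thompson_AxB p P (zpowers (a : G)) (ZZ.map A.subtype) hP
      (hOP.to_le inf_le_left |>.map A.subtype |>.to_le (le_of_eq rfl)) (by rwa [Nat.card_zpowers])
      (zpowers_le.mpr (hN ⟨a, haS, rfl⟩)) ((map_mono hZZS).trans hN) ?_ ?_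
    · exact (mem_centralizer_iff.mp (key (mem_zpowers (a : G))) x hx)
    · rintro _ ⟨n, rfl⟩ _ ⟨z, hz, rfl⟩
      have := hZZc z hz a (h.le haS)
      have h2 : Commute (a : G) (z : G) := congrArg Subtype.val this
      exact ((h2.zpow_left n))
    · rintro _ ⟨n, rfl⟩ x hx hc
      have hz : x ∈ normalizer ((ZZ.map A.subtype : Subgroup G) : Set G) := by
        apply centralizer_le_normalizer
        rw [mem_centralizer_iff]
        intro b hb
        exact hc b hb
      rw [hnorm ZZ hZZn hZZne] at hz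
      have h3 := h.comm_coprime hXp hXN (x := ⟨x, hz⟩) (y := a ^ n) (mem_subgroupOf.mpr hx)
        ((generalizedFittingSubgroup A).zpow_mem (h.le haS) n)
        (by
          have : orderOf (a ^ n) ∣ orderOf a := orderOf_dvd_of_pow_eq_one (by
            rw [← zpow_natCast, ← zpow_mul, mul_comm, zpow_mul, zpow_natCast, pow_orderOf_eq_one, one_zpow])
          exact Nat.Coprime.coprime_dvd_left this hac)
      have h4 := (congrArg Subtype.val h3)
      simp only [Subgroup.coe_mul, Subgroup.coe_zpow] at h4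
      exact h4.symm
  obtain ⟨T, hTn, hTS, y₁, hy₁T, hy₁ne, hy₁c⟩ := h.exists_normal_pprime hy hy1 hyc
  let W : Subgroup A := normalClosure ({y₁} : Set A)
  have hWn : W.Normal := normalClosure_normal
  have hWT : W ≤ T := normalClosure_le_normal (Set.singleton_subset_iff.mpr hy₁T)
  have hWne : W ≠ ⊥ := by
    intro hbot
    have : y₁ ∈ W := subset_normalClosure rfl
    rw [hbot, mem_bot] at this
    exact hy₁ne this
  -- `P` centralises `W`
  have hPW : ∀ x ∈ P, ∀ w ∈ W, x * (w : G) = (w : G) * x := by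
    intro x hx
    have hle : W ≤ (centralizer ({x} : Set G)).comap A.subtype := by
      show normalClosure ({y₁} : Set A) ≤ _
      unfold normalClosure
      rw [closure_le]
      intro w hw
      rw [Group.mem_conjugatesOfSet_iff] at hw
      obtain ⟨b, hb, hbw⟩ := hw
      rw [Set.mem_singleton_iff] at hb
      subst hb
      rw [isConj_iff] at hbw
      obtain ⟨c, rfl⟩ := hbw
      have hmemT := hTn.conj_mem _ hy₁T c
      have hord : (orderOf (c * b * c⁻¹)).Coprime p := by
        have := MulEquiv.orderOf_eq (MulAut.conj c) b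
        rw [MulAut.conj_apply] at this
        rw [this]
        exact hy₁c
      have := stepA _ (hTS hmemT) hord x hx
      show (c * b * c⁻¹ : A).1 ∈ centralizer ({x} : Set G)
      rw [mem_centralizer_iff]
      rintro _ rfl
      exact this
    intro w hw
    have := hle hw
    exact mem_centralizer_iff.mp this x rfl
  have hPA : P ≤ A := by
    rw [← hnorm W hWn hWne]
    intro x hx
    apply centralizer_le_normalizer
    rw [mem_centralizer_iff]
    rintro _ ⟨w, hw, rfl⟩
    exact (hPW x hx w hw).symm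
  have h3 := h.comm_coprime hXp hXN (x := ⟨x, hPA hx⟩) (y := y) (mem_subgroupOf.mpr hx) hy hyc
  exact congrArg Subtype.val h3

end Cfsg.Agent.Lib.TwoFusion
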