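import Mathlib
import Cfsg.Agent.Lib.TwoFusion.TI
import Cfsg.Agent.Lib.OddLocal.Sup
import Cfsg.Agent.Lib.OddLocal.HallHigman

/-!
# Elementary abelian 2-subgroups: hyperplanes, extension by an involution, fixed points
-/

set_option autoImplicit false

namespace Cfsg.Agent.Lib.TwoFusion

open Subgroup

variable {G : Type*} [Group G]

/-- A proper subgroup of a finite 2-subgroup lies in a subgroup of index two. -/
theorem exists_hyperplane [Finite G] {W D : Subgroup G} (hW : IsPGroup 2 W) (hDW : D ≤ W)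
    (hne : D ≠ W) :
    ∃ M : Subgroup G, D ≤ M ∧ M ≤ W ∧ 2 * Nat.card M = Nat.card W ∧
      ∀ a ∈ W, ∀ b ∈ W, a ∉ M → b ∉ M → a * b ∈ M := by
  haveI : Fact (Nat.Prime 2) := ⟨Nat.prime_two⟩
  haveI : Group.IsNilpotent ↥W := hW.isNilpotent
  have hH : D.subgroupOf W ≠ ⊤ := by
    intro h
    apply hne
    apply le_antisymm hDW
    intro x hx
    have : (⟨x, hx⟩ : ↥W) ∈ D.subgroupOf W := by rw [h]; trivial
    exact Subgroup.mem_subgroupOf.mp this
  obtain ⟨M, hM, hDM⟩ := Cfsg.Agent.Lib.Basic.exists_isCoatom_ge hH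
  have hprime := Cfsg.Agent.Lib.Basic.index_prime_of_isCoatom_of_isNilpotent hM
  have hidx : M.index = 2 := by
    obtain ⟨k, hk⟩ := hW.index M
    rw [hk] at hprime ⊢
    have hk1 : k = 1 := by
      by_contra hk1
      rcases Nat.lt_or_ge k 2 with h | h
      · have : k = 0 := by omega
        rw [this] at hprime
        exact Nat.not_prime_one (by simpa using hprime)
      · exact Nat.Prime.not_prime_pow h hprime
    rw [hk1, pow_one]
  refine ⟨M.map W.subtype, ?_, ?_, ?_, ?_⟩
  · intro a ha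
    exact ⟨⟨a, hDW ha⟩, hDM (Subgroup.mem_subgroupOf.mpr ha), rfl⟩
  · rw [Subgroup.map_le_iff_le_comap]
    intro x _
    exact x.2
  · have h1 : Nat.card (M.map W.subtype) = Nat.card M :=
      (Nat.card_congr (Subgroup.equivMapOfInjective M _ W.subtype_injective).toEquiv).symm
    rw [h1, ← hidx, mul_comm]
    exact Subgroup.card_mul_index M
  · intro a ha b hb haM hbM
    have ha' : (⟨a, ha⟩ : ↥W) ∉ M := fun h => haM ⟨_, h, rfl⟩
    have hb' : (⟨b, hb⟩ : ↥W) ∉ M := fun h => hbM ⟨_, h, rfl⟩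
    have : (⟨a, ha⟩ : ↥W) * ⟨b, hb⟩ ∈ M := by
      rw [Subgroup.mul_mem_iff_of_index_two hidx]
      simp [ha', hb']
    exact ⟨_, this, rfl⟩

/-- Adjoining a commuting involution outside doubles the order. -/
theorem card_sup_zpowers [Finite G] {W : Subgroup G} {f : G} (hf2 : f * f = 1) (hf : f ∉ W)
    (hc : ∀ w ∈ W, f * w = w * f) : Nat.card ↥(W ⊔ Subgroup.zpowers f) = 2 * Nat.card W := by
  have hf1 : f ≠ 1 := by
    rintro rfl
    exact hf W.one_mem
  have hmemZ : ∀ x ∈ Subgroup.zpowers f, x = 1 ∨ x = f := by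
    rintro _ ⟨k, rfl⟩
    have hf' : f ^ (2 : ℤ) = 1 := by
      rw [zpow_two]; exact hf2
    rcases Int.even_or_odd' k with ⟨m, rfl | rfl⟩
    · left
      show f ^ (2 * m) = 1
      rw [zpow_mul, hf', one_zpow]
    · right
      show f ^ (2 * m + 1) = f
      rw [zpow_add, zpow_mul, hf', one_zpow, one_mul, zpow_one]
  have hcardZ : Nat.card (Subgroup.zpowers f) = 2 := by
    rw [Nat.card_zpowers]
    apply orderOf_eq_prime (by rw [pow_two]; exact hf2) hf1
  have hN : Subgroup.zpowers f ≤ normalizer (W : Set G) := by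
    intro x hx
    rcases hmemZ x hx with hx1 | hx1
    · rw [hx1]; exact Subgroup.one_mem _
    · rw [hx1, Subgroup.mem_normalizer_iff]
      intro w
      have e : ∀ w, w ∈ W → f * w * f⁻¹ = w := by
        intro w hw
        rw [hc w hw]; group
      constructor
      · intro hw
        rw [e w hw]; exact hw
      · intro hw
        have h2 := e _ hw
        have h3 : f * (f * w * f⁻¹) * f⁻¹ = w := by
          have : f⁻¹ = f := inv_eq_of_mul_eq_one_left hf2
          rw [this]
          calc f * (f * w * f) * f = (f * f) * w * (f * f) := by group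
            _ = w := by rw [hf2]; group
        rw [h3] at h2
        rw [h2]
        exact hw
  have h1 := Cfsg.Agent.Lib.OddLocal.card_sup_mul_card_inf (A := W) (B := Subgroup.zpowers f) hN
  have hbot : W ⊓ Subgroup.zpowers f = ⊥ := by
    rw [eq_bot_iff]
    intro x hx
    obtain ⟨h2, h3⟩ := Subgroup.mem_inf.mp hx
    rcases hmemZ x h3 with hx1 | hx1
    · rw [hx1]; exact Subgroup.one_mem _
    · rw [hx1] at h2; exact absurd h2 hf
  rw [hbot, Subgroup.card_bot, mul_one, hcardZ] at h1
  rw [h1, mul_comm]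

/-- An involution acting on an elementary abelian group has at least `√|F|` fixed points. -/
theorem card_le_fixed_sq [Finite G] (F : Subgroup G) (hFc : ∀ x ∈ F, ∀ y ∈ F, x * y = y * x)
    (hF2 : ∀ x ∈ F, x * x = 1) (u : G) (hu : ∀ x ∈ F, u * x * u⁻¹ ∈ F) (hu2 : u * u = 1) :
    Nat.card F ≤ Nat.card ↥(F ⊓ centralizer ({u} : Set G)) ^ 2 := by
  classical
  have uinv : u⁻¹ = u := inv_eq_of_mul_eq_one_left hu2
  set C := F ⊓ centralizer ({u} : Set G) with hC
  have hmemC : ∀ x : G, x ∈ C ↔ x ∈ F ∧ u * x = x * u := by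
    intro x
    rw [hC, Subgroup.mem_inf, Subgroup.mem_centralizer_singleton_iff]
    constructor
    · rintro ⟨h1, h2⟩; exact ⟨h1, h2.symm⟩
    · rintro ⟨h1, h2⟩; exact ⟨h1, h2.symm⟩
  let g : ↥F →* ↥C :=
    { toFun := fun x => ⟨(x : G) * (u * (x : G) * u⁻¹), by
        rw [hmemC]
        refine ⟨F.mul_mem x.2 (hu x x.2), ?_⟩
        have h1 := hFc _ (hu x x.2) _ x.2
        rw [uinv] at h1 ⊢
        calc u * ((x : G) * (u * (x : G) * u)) = (u * x * u) * x * u := by group
          _ = (x : G) * (u * (x : G) * u) * u := by rw [h1]⟩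
      map_one' := by
        apply Subtype.ext
        simp
      map_mul' := by
        intro x y
        apply Subtype.ext
        show ((x : G) * y) * (u * ((x : G) * y) * u⁻¹) =
          ((x : G) * (u * (x : G) * u⁻¹)) * ((y : G) * (u * (y : G) * u⁻¹))
        have h1 := hFc _ y.2 _ (hu x x.2)
        calc ((x : G) * y) * (u * ((x : G) * y) * u⁻¹)
            = (x : G) * ((y : G) * (u * (x : G) * u⁻¹)) * (u * (y : G) * u⁻¹) := by group
          _ = (x : G) * ((u * (x : G) * u⁻¹) * (y : G)) * (u * (y : G) * u⁻¹) := by rw [h1]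
          _ = ((x : G) * (u * (x : G) * u⁻¹)) * ((y : G) * (u * (y : G) * u⁻¹)) := by group }
  have hgval : ∀ x : ↥F, ((g x : ↥C) : G) = (x : G) * (u * (x : G) * u⁻¹) := fun _ => rfl
  have h1 : Nat.card g.ker * g.ker.index = Nat.card F := Subgroup.card_mul_index g.ker
  have h2 : g.ker.index = Nat.card g.range := Subgroup.index_ker g
  have h3 : Nat.card g.range ≤ Nat.card C := Subgroup.card_le_card_group _
  have h4 : Nat.card g.ker ≤ Nat.card C := by
    have hmem : ∀ x : g.ker, ((x : ↥F) : G) ∈ C := by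
      intro x
      rw [hmemC]
      refine ⟨(x : ↥F).2, ?_⟩
      have h5 : ((g x : ↥C) : G) = 1 := by
        rw [MonoidHom.mem_ker.mp x.2]; rfl
      rw [hgval] at h5
      have h6 := hF2 _ (x : ↥F).2
      have h7 : u * ((x : ↥F) : G) * u⁻¹ = ((x : ↥F) : G) := by
        have e1 : u * ((x : ↥F) : G) * u⁻¹ = ((x : ↥F) : G)⁻¹ := eq_inv_of_mul_eq_one_right h5
        rw [e1]
        exact inv_eq_of_mul_eq_one_left h6
      calc u * ((x : ↥F) : G) = (u * ((x : ↥F) : G) * u⁻¹) * u := by group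
        _ = ((x : ↥F) : G) * u := by rw [h7]
    refine Nat.card_le_card_of_injective (fun x => (⟨_, hmem x⟩ : ↥C)) ?_
    intro x y h
    have := congrArg Subtype.val h
    exact Subtype.ext (Subtype.ext this)
  rw [← h1, h2, pow_two]
  exact Nat.mul_le_mul h4 h3

end Cfsg.Agent.Lib.TwoFusion
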