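import Mathlib
import Cfsg.Agent.Lib.TwoFusion.Isolated

/-!
# Counting with isolated involutions: midpoints in a conjugacy class of isolated involutions.
-/

set_option autoImplicit false

namespace Cfsg.Agent.Lib.TwoFusion

open Cfsg

variable {G : Type*} [Group G]

/-- The conjugacy class of `z` as a subtype. -/
abbrev ConjSet (z : G) : Type _ := {t : G // IsConj z t}

theorem isolated_of_isConj {z t : G} (hz : IsIsolatedInvolution z) (h : IsConj z t) :
    IsIsolatedInvolution t := by
  obtain ⟨g, rfl⟩ := isConj_iff.mp h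
  exact IsolatedConj hz g

/-- Midpoints exist. -/
theorem exists_mid [Finite G] {z a b : G} (hz : IsIsolatedInvolution z) (ha : IsConj z a)
    (hb : IsConj z b) : ∃ p : G, IsConj z p ∧ p * a * p⁻¹ = b := by
  have hia := isolated_of_isConj hz ha
  have hab : IsConj a b := ha.symm.trans hb
  obtain ⟨g, rfl⟩ := isConj_iff.mp hab
  obtain ⟨k, hk1, hk2, hk3, _⟩ := exists_odd_conj hia g
  have ha2 := involution_sq hia.1
  have hai := involution_inv hia.1
  refine ⟨k * a, ?_, ?_⟩
  · -- k = k' * k' with k' a power of k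
    set k' := k ^ ((orderOf k + 1) / 2) with hk'
    have hsq : k' * k' = k := exists_sqrt_of_odd hk1
    have hinv' : a * k' * a⁻¹ = k'⁻¹ := by
      rw [hk', pow_mul_of_inverts hk2, inv_pow]
    have h1 : a * k'⁻¹ = k' * a := by
      have h2 : a * k'⁻¹ * a⁻¹ = k' := by
        have : a * k'⁻¹ * a⁻¹ = (a * k' * a⁻¹)⁻¹ := by group
        rw [this, hinv', inv_inv]
      calc a * k'⁻¹ = (a * k'⁻¹ * a⁻¹) * a := by group
        _ = k' * a := by rw [h2]
    have h3 : k' * a * k'⁻¹ = k * a := by
      rw [mul_assoc, h1, ← mul_assoc, hsq]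
    refine ha.trans (isConj_iff.mpr ⟨k', h3⟩)
  · have : k * a * a * (k * a)⁻¹ = k * (a * a) * a⁻¹ * k⁻¹ := by group
    rw [this, ha2, mul_one, hai]
    exact hk3

/-- Midpoints are unique. -/
theorem mid_unique [Finite G] {z a p q : G} (hz : IsIsolatedInvolution z) (ha : IsConj z a)
    (hp : IsConj z p) (hq : IsConj z q) (h : p * a * p⁻¹ = q * a * q⁻¹) : p = q := by
  have hia := isolated_of_isConj hz ha
  have hip := isolated_of_isConj hz hp
  have hiq := isolated_of_isConj hz hq
  have ha2 := involution_sq hia.1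
  have hai := involution_inv hia.1
  have hpi := involution_inv hip.1
  have hqi := involution_inv hiq.1
  have oddp : Odd (orderOf (p * a)) := by
    obtain ⟨g, hg⟩ := isConj_iff.mp (hp.symm.trans ha)
    have := IsolatedOdd hip g
    rwa [hg] at this
  have oddq : Odd (orderOf (q * a)) := by
    obtain ⟨g, hg⟩ := isConj_iff.mp (hq.symm.trans ha)
    have := IsolatedOdd hiq g
    rwa [hg] at this
  have invp : ∀ r : G, r⁻¹ = r → a * (r * a) * a⁻¹ = (r * a)⁻¹ := by
    intro r hr
    rw [mul_inv_rev, hai, hr]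
    calc a * (r * a) * a = a * r * (a * a) := by group
      _ = a * r := by rw [ha2, mul_one]
  have hc : ∀ r : G, (r * a) * a * (r * a)⁻¹ = r * a * r⁻¹ := by
    intro r
    have : (r * a) * a * (r * a)⁻¹ = r * (a * a) * a⁻¹ * r⁻¹ := by group
    rw [this, ha2, mul_one, hai]
  have := odd_conj_unique hia.1 oddp oddq (invp p hpi) (invp q hqi)
    (by rw [hc, hc, h])
  exact mul_right_cancel this

theorem conj_isConj_of_isConj {z p t : G} (hp : IsConj z p) (ht : IsConj z t) :
    IsConj z (p * t * p⁻¹) :=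
  ht.trans (isConj_iff.mpr ⟨p, rfl⟩)

/-- Orbit–stabilizer for the class of `z`. -/
theorem card_eq_centralizer_mul_conjSet [Finite G] (z : G) :
    Nat.card G = Nat.card (Subgroup.centralizer ({z} : Set G)) * Nat.card (ConjSet z) := by
  classical
  set C := Subgroup.centralizer ({z} : Set G) with hC
  have hmem : ∀ g h : G, g * z * g⁻¹ = h * z * h⁻¹ ↔ g⁻¹ * h ∈ C := by
    intro g h
    rw [hC, Subgroup.mem_centralizer_singleton_iff]
    constructor
    · intro e
      have : h * z * h⁻¹ * h = h * z := by group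
      calc g⁻¹ * h * z = g⁻¹ * (h * z * h⁻¹ * h) := by rw [this]; group
        _ = g⁻¹ * (g * z * g⁻¹ * h) := by rw [e]
        _ = z * (g⁻¹ * h) := by group
    · intro e
      have h1 : h * z = g * z * g⁻¹ * h := by
        calc h * z = g * (g⁻¹ * h * z) := by group
          _ = g * (z * (g⁻¹ * h)) := by rw [e]
          _ = g * z * g⁻¹ * h := by group
      rw [h1]; group
  let φ : G ⧸ C → ConjSet z := fun q => Quotient.liftOn' q
    (fun g => (⟨g * z * g⁻¹, isConj_iff.mpr ⟨g, rfl⟩⟩ : ConjSet z))
    (by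
      intro a b hab
      apply Subtype.ext
      exact (hmem a b).mpr (QuotientGroup.leftRel_apply.mp hab))
  have hφ : Function.Bijective φ := by
    constructor
    · intro a b hab
      induction a using QuotientGroup.induction_on with
      | H a =>
      induction b using QuotientGroup.induction_on with
      | H b =>
      have h1 : a * z * a⁻¹ = b * z * b⁻¹ := congrArg Subtype.val hab
      exact QuotientGroup.eq.mpr ((hmem a b).mp h1)
    · rintro ⟨t, ht⟩
      obtain ⟨g, rfl⟩ := isConj_iff.mp ht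
      exact ⟨QuotientGroup.mk g, rfl⟩
  have hcard : Nat.card (ConjSet z) = C.index := by
    rw [Subgroup.index]
    exact (Nat.card_congr (Equiv.ofBijective φ hφ)).symm
  rw [hcard]
  exact (Subgroup.card_mul_index C).symm

/-- The subset of the class of `z` commuting with `w`. -/
abbrev ConjFix (z w : G) : Type _ := {t : G // IsConj z t ∧ Commute t w}

theorem alg_conj_iff_commute {a s m : G} (hs : s * s = 1) (hm : m * m = 1) (hc : m * s = s * m) :
    m * a * m⁻¹ = s * a * s⁻¹ ↔ a * (s * m) = (s * m) * a := by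
  have hsi : s⁻¹ = s := inv_eq_of_mul_eq_one_left hs
  have hmi : m⁻¹ = m := inv_eq_of_mul_eq_one_left hm
  rw [hmi, hsi]
  constructor
  · intro h
    calc a * (s * m) = (s * s) * a * (s * m) := by rw [hs, one_mul]
      _ = s * (s * a * s) * m := by simp only [mul_assoc]
      _ = s * (m * a * m) * m := by rw [h]
      _ = s * m * a * (m * m) := by simp only [mul_assoc]
      _ = s * m * a := by rw [hm, mul_one]
  · intro h
    calc m * a * m = (s * s) * (m * a * m) := by rw [hs, one_mul]
      _ = s * (s * m * a) * m := by simp only [mul_assoc]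
      _ = s * (a * (s * m)) * m := by rw [h]
      _ = s * a * s * (m * m) := by simp only [mul_assoc]
      _ = s * a * s := by rw [hm, mul_one]

/-- Main counting lemma: `|X| = |C_X(s)| · |C_X(sz)|`. -/
theorem card_conjSet_eq [Finite G] {z s : G} (hz : IsIsolatedInvolution z) (hs : s * s = 1)
    (hsz : Commute s z) :
    Nat.card (ConjSet z) = Nat.card (ConjFix z s) * Nat.card (ConjFix z (s * z)) := by
  classical
  have hsi : s⁻¹ = s := inv_eq_of_mul_eq_one_left hs
  have hsc : ∀ t : G, IsConj z t → IsConj z (s * t * s⁻¹) :=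
    fun t ht => ht.trans (isConj_iff.mpr ⟨s, rfl⟩)
  have hex : ∀ a b : ConjSet z, ∃ p : ConjSet z, (p : G) * a * (p : G)⁻¹ = b := fun a b => by
    obtain ⟨p, hp, h⟩ := exists_mid hz a.2 b.2
    exact ⟨⟨p, hp⟩, h⟩
  choose mid hmid using hex
  have hinvol : ∀ p : ConjSet z, (p : G) * p = 1 :=
    fun p => involution_sq (isolated_of_isConj hz p.2).1
  let sa : ConjSet z → ConjSet z := fun t => ⟨s * t * s⁻¹, hsc t t.2⟩
  -- `mid a (s a s)` commutes with `s`
  have hf : ∀ a : ConjSet z, Commute (mid a (sa a) : G) s := by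
    intro a
    set p := mid a (sa a) with hp
    have h1 : (p : G) * a * (p : G)⁻¹ = s * a * s⁻¹ := hmid a (sa a)
    have h2 : (p : G) * (s * a * s⁻¹) * (p : G)⁻¹ = a := by
      rw [← h1]
      calc (p : G) * ((p : G) * a * (p : G)⁻¹) * (p : G)⁻¹
          = ((p : G) * p) * a * (((p : G) * p))⁻¹ := by group
        _ = a := by rw [hinvol]; group
    have h3 : (s * p * s⁻¹) * (s * a * s⁻¹) * (s * p * s⁻¹)⁻¹ = a := by
      have e : (s * p * s⁻¹) * (s * a * s⁻¹) * (s * p * s⁻¹)⁻¹ = s * ((p : G) * a * (p : G)⁻¹) * s⁻¹ := by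
        group
      rw [e, h1]
      have : s * (s * a * s⁻¹) * s⁻¹ = (s * s) * a * (s * s)⁻¹ := by group
      rw [this, hs]; group
    have h4 : s * p * s⁻¹ = (p : G) :=
      mid_unique hz (hsc a a.2) (hsc p p.2) p.2 (by rw [h3, h2])
    show (p : G) * s = s * p
    calc (p : G) * s = (s * p * s⁻¹) * s := by rw [h4]
      _ = s * p := by group
  let f : ConjSet z → ConjFix z s := fun a => ⟨mid a (sa a), (mid a (sa a)).2, hf a⟩
  -- The fibres of `f` all have the cardinality of `C_X(sz)`
  have hfiber : ∀ m : ConjFix z s, Nat.card {a : ConjSet z // f a = m} = Nat.card (ConjFix z (s * z)) := by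
    rintro ⟨m, hm1, hm2⟩
    set m' : ConjSet z := ⟨m, hm1⟩ with hm'
    set z' : ConjSet z := ⟨z, IsConj.refl z⟩ with hz'
    set p := mid z' m' with hp
    have hp1 : (p : G) * z * (p : G)⁻¹ = m := hmid z' m'
    have hmm : m * m = 1 := hinvol m'
    have hmi : m⁻¹ = m := inv_eq_of_mul_eq_one_left hmm
    have hpp : (p : G) * p = 1 := hinvol p
    -- `p` commutes with `s`
    have hps : (p : G) * s = s * p := by
      have hszz : s * z * s⁻¹ = z := by rw [hsz.eq]; group
      have hsmm : s * m * s⁻¹ = m := by rw [← hm2.eq]; group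
      have h3 : (s * p * s⁻¹) * z * (s * p * s⁻¹)⁻¹ = m := by
        have e : (s * p * s⁻¹) * z * (s * p * s⁻¹)⁻¹ = s * ((p : G) * (s⁻¹ * z * s) * (p : G)⁻¹) * s⁻¹ := by
          group
        have hs2 : s⁻¹ * z * s = z := by rw [hsi, hsz.eq, mul_assoc, hs, mul_one]
        rw [e, hs2, hp1, hsmm]
      have h4 : s * p * s⁻¹ = (p : G) :=
        mid_unique hz (IsConj.refl z) (hsc p p.2) p.2 (by rw [h3, hp1])
      calc (p : G) * s = (s * p * s⁻¹) * s := by rw [h4]
        _ = s * p := by group
    -- membership of the fibre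
    have hfib : ∀ a : ConjSet z, f a = ⟨m, hm1, hm2⟩ ↔ Commute (a : G) (s * m) := by
      intro a
      constructor
      · intro h
        have h1 : (mid a (sa a) : G) = m := congrArg Subtype.val h
        have h2 : (m : G) * a * m⁻¹ = s * a * s⁻¹ := by rw [← h1]; exact hmid a (sa a)
        exact (alg_conj_iff_commute hs hmm hm2.eq).mp h2
      · intro h
        have h2 : (m : G) * a * m⁻¹ = s * a * s⁻¹ := (alg_conj_iff_commute hs hmm hm2.eq).mpr h
        apply Subtype.ext
        show ((mid a (sa a)) : G) = m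
        have h3 := hmid a (sa a)
        exact mid_unique hz a.2 (mid a (sa a)).2 hm1 (by rw [h3, h2])
    have hpsz : (p : G)⁻¹ * (s * m) * p = s * z := by
      have hpi : (p : G)⁻¹ = p := inv_eq_of_mul_eq_one_left hpp
      rw [← hp1, hpi]
      calc (p : G) * (s * ((p : G) * z * p)) * p = ((p : G) * s) * (p * z * p) * p := by
            simp only [mul_assoc]
        _ = (s * p) * (p * z * p) * p := by rw [hps]
        _ = s * ((p : G) * p) * z * ((p : G) * p) := by simp only [mul_assoc]
        _ = s * z := by rw [hpp, mul_one, mul_one]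
    have hcomm : ∀ a : G, Commute a (s * m) ↔ Commute ((p : G)⁻¹ * a * p) (s * z) := by
      intro a
      have := Commute.conj_iff (a := a) (b := s * m) (p : G)⁻¹
      rw [inv_inv, hpsz] at this
      exact this.symm
    refine Nat.card_congr
      { toFun := fun a => ⟨(p : G)⁻¹ * a.1.1 * p, ?_, (hcomm _).mp ((hfib a.1).mp a.2)⟩
        invFun := fun t => ⟨⟨(p : G) * t.1 * (p : G)⁻¹, ?_⟩, (hfib _).mpr ((hcomm _).mpr ?_)⟩
        left_inv := ?_
        right_inv := ?_ }
    · exact a.1.2.trans (isConj_iff.mpr ⟨(p : G)⁻¹, by rw [inv_inv]⟩)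
    · exact t.2.1.trans (isConj_iff.mpr ⟨p, rfl⟩)
    · have e : (p : G)⁻¹ * ((p : G) * t.1 * (p : G)⁻¹) * p = t.1 := by group
      rw [e]
      exact t.2.2
    · intro a
      apply Subtype.ext
      apply Subtype.ext
      show (p : G) * ((p : G)⁻¹ * a.1.1 * p) * (p : G)⁻¹ = a.1.1
      group
    · intro t
      apply Subtype.ext
      show (p : G)⁻¹ * ((p : G) * t.1 * (p : G)⁻¹) * p = t.1
      group
  haveI := Fintype.ofFinite (ConjFix z s)
  have hcard : Nat.card (ConjSet z) = ∑ m : ConjFix z s, Nat.card {a : ConjSet z // f a = m} := by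
    rw [← Nat.card_sigma]
    exact Nat.card_congr (Equiv.sigmaFiberEquiv f).symm
  rw [hcard, Finset.sum_congr rfl (fun m _ => hfiber m), Finset.sum_const, Finset.card_univ,
    Nat.card_eq_fintype_card (α := ConjFix z s), smul_eq_mul]

end Cfsg.Agent.Lib.TwoFusion
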