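import Mathlib
import Cfsg.Agent.Lib.TwoFusion.QTSetup
import Cfsg.Agent.Lib.Basic.Nilpotent

/-!
# Perfect subnormal subgroups, the modules `V(Y)`
-/

set_option autoImplicit false
set_option linter.unusedSectionVars false

namespace Cfsg.Agent.Lib.TwoFusion

open Cfsg Subgroup Cfsg.Agent.Lib.Components
open scoped commutatorElement

section supplement

variable {Y : Type*} [Group Y]

theorem eq_bot_of_perfect_of_solvable {D E : Subgroup Y} (hDE : D ≤ E) (hE : Group.IsSolvable E)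
    (hD : ⁅D, D⁆ = D) : D = ⊥ := by
  haveI : Group.IsPerfect D := Subgroup.isPerfect_iff.mpr hD
  haveI : Group.IsSolvable D :=
    Group.isSolvable_of_isSolvable_injective (f := Subgroup.inclusion hDE) (Subgroup.inclusion_injective hDE)
  by_contra hne
  haveI : Nontrivial D := (Subgroup.nontrivial_iff_ne_bot D).mpr hne
  exact Group.IsPerfect.not_isSolvable D inferInstance

/-- A perfect subgroup of `K R`, with `K` subnormal and `R` normal and solvable, lies in `K`. -/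
theorem perfect_le_of_subnormal_sup {K R : Subgroup Y} (hK : K.IsSubnormal) (hRn : R.Normal)
    (hRs : Group.IsSolvable R) {A : Subgroup Y} (hA : ⁅A, A⁆ = A) (hAle : A ≤ K ⊔ R) : A ≤ K := by
  have key := subnormal_chain_induction hK
    (fun B => ∀ A : Subgroup Y, ⁅A, A⁆ = A → A ≤ K ⊔ R → A ≤ B → A ≤ K)
    (fun _ _ _ h => h) ?_
  · exact key A hA hAle le_top
  · intro A' B hKA hAB hN hA' A hA hAle hAB'
    apply hA' A hA hAle
    haveI := hN
    let q := QuotientGroup.mk' (A'.subgroupOf B)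
    let f : ↥(R.subgroupOf B) →* ↥R :=
      { toFun := fun x => ⟨x.1.1, x.2⟩
        map_one' := rfl
        map_mul' := fun _ _ => rfl }
    haveI h1 : Group.IsSolvable (R.subgroupOf B) :=
      Group.isSolvable_of_isSolvable_injective (f := f) (by
        intro a b hab
        apply Subtype.ext
        apply Subtype.ext
        have h5 : ((f a : R) : Y) = ((f b : R) : Y) := congrArg Subtype.val hab
        exact h5)
    let E : Subgroup (B ⧸ A'.subgroupOf B) := (R.subgroupOf B).map q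
    have hEs : Group.IsSolvable E :=
      Group.isSolvable_of_surjective (f := q.subgroupMap (R.subgroupOf B)) (q.subgroupMap_surjective _)
    let D : Subgroup (B ⧸ A'.subgroupOf B) := (A.subgroupOf B).map q
    have hDE : D ≤ E := by
      rintro _ ⟨a, ha, rfl⟩
      have ha' : (a : Y) ∈ K ⊔ R := hAle ha
      haveI := hRn
      obtain ⟨k, hk, o, ho, hkoe⟩ := exists_mul_of_mem_sup_normal ha'
      have hkB : k ∈ B := hAB (hKA hk)
      have hoB : o ∈ B := by
        have e : o = k⁻¹ * a := by rw [hkoe]; group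
        rw [e]
        exact B.mul_mem (B.inv_mem hkB) a.2
      refine ⟨⟨o, hoB⟩, ho, ?_⟩
      have e1 : a = ⟨k, hkB⟩ * ⟨o, hoB⟩ := Subtype.ext hkoe
      rw [e1, map_mul]
      have e2 : q ⟨k, hkB⟩ = 1 := by
        rw [← MonoidHom.mem_ker, QuotientGroup.ker_mk']
        exact hKA hk
      rw [e2, one_mul]
    have hDperf : ⁅D, D⁆ = D := by
      have h2 : ⁅A.subgroupOf B, A.subgroupOf B⁆ = A.subgroupOf B := by
        apply Subgroup.map_injective B.subtype_injective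
        rw [Subgroup.map_commutator, Subgroup.map_subgroupOf_eq_of_le hAB']
        exact hA
      show ⁅(A.subgroupOf B).map q, (A.subgroupOf B).map q⁆ = (A.subgroupOf B).map q
      rw [← Subgroup.map_commutator, h2]
    have hD := eq_bot_of_perfect_of_solvable hDE hEs hDperf
    intro a ha
    have h3 : q ⟨a, hAB' ha⟩ ∈ D := ⟨⟨a, hAB' ha⟩, ha, rfl⟩
    rw [hD, Subgroup.mem_bot, ← MonoidHom.mem_ker, QuotientGroup.ker_mk'] at h3
    exact h3

theorem conj_mem_of_perfect_subnormal {K R : Subgroup Y} (hK : K.IsSubnormal) (hperf : ⁅K, K⁆ = K)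
    (hRn : R.Normal) (hRs : Group.IsSolvable R) {r k : Y} (hr : r ∈ R) (hk : k ∈ K) :
    r * k * r⁻¹ ∈ K := by
  have h := perfect_le_of_subnormal_sup hK hRn hRs
    (A := K.map (MulAut.conj r).toMonoidHom)
    (by rw [← Subgroup.map_commutator, hperf])
    (by
      rintro _ ⟨l, hl, rfl⟩
      have e : (MulAut.conj r).toMonoidHom l = (r * (l * r⁻¹ * l⁻¹)) * l := by
        show r * l * r⁻¹ = _
        group
      rw [e, sup_comm]
      exact Subgroup.mul_mem_sup (R.mul_mem hr (hRn.conj_mem _ (R.inv_mem hr) l)) hl)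
  exact h ⟨k, hk, by simp [MulAut.conj_apply]⟩

end supplement

variable {G : Type*} [Group G] [Finite G]

theorem pCoreTwoOf_le_self (Y : Subgroup G) : pCoreTwoOf Y ≤ Y := Subgroup.map_subtype_le _

theorem isPGroup_pCoreTwoOf (Y : Subgroup G) : IsPGroup 2 (pCoreTwoOf Y) := by
  haveI : Fact (Nat.Prime 2) := ⟨Nat.prime_two⟩
  exact (pCore_isPGroup (p := 2) (G := Y)).map _

theorem conj_mem_pCoreTwoOf {Y : Subgroup G} {g x : G} (hg : g ∈ Y) (hx : x ∈ pCoreTwoOf Y) :
    g * x * g⁻¹ ∈ pCoreTwoOf Y := by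
  obtain ⟨z, hz, rfl⟩ := hx
  exact ⟨⟨g, hg⟩ * z * ⟨g, hg⟩⁻¹, (inferInstance : (pCore 2 Y).Normal).conj_mem _ hz _, rfl⟩

theorem le_pCoreTwoOf {A Y : Subgroup G} (hAY : A ≤ Y) (hA : IsPGroup 2 A)
    (hn : ∀ y ∈ Y, ∀ a ∈ A, y * a * y⁻¹ ∈ A) : A ≤ pCoreTwoOf Y := by
  haveI : Fact (Nat.Prime 2) := ⟨Nat.prime_two⟩
  have h1 : A.subgroupOf Y ≤ pCore 2 Y := by
    apply le_pCore
    · constructor
      rintro ⟨a, ha⟩ ha' ⟨y, hy⟩
      exact hn y hy a ha'
    · exact hA.of_equiv (Subgroup.subgroupOfEquivOfLe hAY).symm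
  intro a ha
  exact ⟨⟨a, hAY ha⟩, h1 ha, rfl⟩

theorem pCoreTwoOf_le_of_subnormal {H L : Subgroup G} (hLH : L ≤ H)
    (hsn : (L.subgroupOf H).IsSubnormal) : pCoreTwoOf L ≤ pCoreTwoOf H := by
  haveI : Fact (Nat.Prime 2) := ⟨Nat.prime_two⟩
  have hle : pCoreTwoOf L ≤ L := pCoreTwoOf_le_self L
  have h1 : ((pCoreTwoOf L).subgroupOf L).IsSubnormal := by
    have : (pCoreTwoOf L).subgroupOf L = pCore 2 L := by
      ext x
      constructor
      · rintro ⟨z, hz, hze⟩
        have : z = x := Subtype.ext hze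
        rwa [← this]
      · intro hx
        exact ⟨x, hx, rfl⟩
    rw [this]
    exact (inferInstance : (pCore 2 L).Normal).isSubnormal
  have h2 : ((pCoreTwoOf L).subgroupOf H).IsSubnormal := subnormal_trans hle hLH h1 hsn
  have h3 := subnormal_le_pCore h2 ((isPGroup_pCoreTwoOf L).of_equiv
    (Subgroup.subgroupOfEquivOfLe (hle.trans hLH)).symm)
  intro x hx
  exact ⟨⟨x, hLH (hle hx)⟩, h3 hx, rfl⟩

section perfect

variable {H L : Subgroup G} (hLH : L ≤ H) (hsn : (L.subgroupOf H).IsSubnormal)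
  (hperf : ⁅L.subgroupOf H, L.subgroupOf H⁆ = L.subgroupOf H)

include hLH hperf in
theorem perfect_of_subgroupOf : ⁅L, L⁆ = L := by
  have := congrArg (Subgroup.map H.subtype) hperf
  rwa [Subgroup.map_commutator, Subgroup.map_subgroupOf_eq_of_le hLH] at this

include hLH hsn hperf in
theorem conj_mem_of_mem_pCoreTwoOf {r l : G} (hr : r ∈ pCoreTwoOf H) (hl : l ∈ L) :
    r * l * r⁻¹ ∈ L := by
  haveI : Fact (Nat.Prime 2) := ⟨Nat.prime_two⟩
  obtain ⟨r', hr', rfl⟩ := hr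
  have h1 := conj_mem_of_perfect_subnormal (R := pCore 2 H) hsn hperf inferInstance
    (isSolvable_of_isPGroup (p := 2) (pCore_isPGroup (p := 2) (G := H))) hr'
    (k := ⟨l, hLH hl⟩) hl
  exact h1

include hLH hsn hperf in
/-- `[O₂(H), L] ≤ O₂(L)`. -/
theorem comm_mem_pCoreTwoOf {r l : G} (hr : r ∈ pCoreTwoOf H) (hl : l ∈ L) :
    r * l * r⁻¹ * l⁻¹ ∈ pCoreTwoOf L := by
  have h1 : pCoreTwoOf H ⊓ L ≤ pCoreTwoOf L := by
    apply le_pCoreTwoOf inf_le_right ((isPGroup_pCoreTwoOf H).to_le inf_le_left)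
    rintro y hy a ⟨ha1, ha2⟩
    exact ⟨conj_mem_pCoreTwoOf (hLH hy) ha1, L.mul_mem (L.mul_mem hy ha2) (L.inv_mem hy)⟩
  apply h1
  constructor
  · have h2 := conj_mem_pCoreTwoOf (hLH hl) ((pCoreTwoOf H).inv_mem hr)
    have e : r * l * r⁻¹ * l⁻¹ = r * (l * r⁻¹ * l⁻¹) := by group
    rw [e]
    exact (pCoreTwoOf H).mul_mem hr h2
  · exact L.mul_mem (conj_mem_of_mem_pCoreTwoOf hLH hsn hperf hr hl) (L.inv_mem hl)

end perfect

/-- Elements normalizing `L` normalize `O₂(L)`. -/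
theorem conj_mem_pCoreTwoOf_of_normalizes {L : Subgroup G} {g o : G} (hg : g ∈ normalizer (L : Set G))
    (ho : o ∈ pCoreTwoOf L) : g * o * g⁻¹ ∈ pCoreTwoOf L := by
  have hgL : ∀ l : G, l ∈ L → g * l * g⁻¹ ∈ L := fun l hl => (mem_normalizer_iff.mp hg l).mp hl
  have hgL' : ∀ l : G, l ∈ L → g⁻¹ * l * g ∈ L := by
    intro l hl
    have h1 := (mem_normalizer_iff.mp hg (g⁻¹ * l * g)).mpr (by
      have e : g * (g⁻¹ * l * g) * g⁻¹ = l := by group
      rw [e]
      exact hl)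
    exact h1
  have h1 : (pCoreTwoOf L).map (MulAut.conj g).toMonoidHom ≤ pCoreTwoOf L := by
    apply le_pCoreTwoOf
    · rintro _ ⟨x, hx, rfl⟩
      exact hgL x (pCoreTwoOf_le_self L hx)
    · exact (isPGroup_pCoreTwoOf L).map _
    · rintro y hy _ ⟨x, hx, rfl⟩
      refine ⟨(g⁻¹ * y * g) * x * (g⁻¹ * y * g)⁻¹, conj_mem_pCoreTwoOf (hgL' y hy) hx, ?_⟩
      show g * ((g⁻¹ * y * g) * x * (g⁻¹ * y * g)⁻¹) * g⁻¹ = y * (g * x * g⁻¹) * y⁻¹
      group
  exact h1 ⟨o, ho, rfl⟩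

section omega

variable {A : Subgroup G}

theorem mem_omegaOne_of {x : G} (hx : x ∈ A) (h2 : x ^ 2 = 1) : x ∈ omegaOne 2 A :=
  Subgroup.subset_closure ⟨hx, h2⟩

theorem omegaOne_le : omegaOne 2 A ≤ A := by
  rw [omegaOne, Subgroup.closure_le]
  exact fun _ h => h.1

theorem sq_eq_one_of_mem_omegaOne (hA : ∀ a ∈ A, ∀ b ∈ A, a * b = b * a) {x : G}
    (hx : x ∈ omegaOne 2 A) : x ^ 2 = 1 := by
  have hle := omegaOne_le (A := A)
  induction hx using Subgroup.closure_induction with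
  | mem x h => exact h.2
  | one => simp
  | mul a b ha hb iha ihb =>
    have hc : Commute a b := hA a (hle ha) b (hle hb)
    rw [hc.mul_pow, iha, ihb, one_mul]
  | inv a ha ih => rw [inv_pow, ih, inv_one]

/-- Conjugation preserving `A` preserves `Ω₁(A)`. -/
theorem conj_mem_omegaOne {g x : G} (hg : ∀ a ∈ A, g * a * g⁻¹ ∈ A) (hx : x ∈ omegaOne 2 A) :
    g * x * g⁻¹ ∈ omegaOne 2 A := by
  induction hx using Subgroup.closure_induction with
  | mem x h =>
    apply mem_omegaOne_of (hg x h.1)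
    have e : (g * x * g⁻¹) ^ 2 = g * x ^ 2 * g⁻¹ := by
      rw [pow_two, pow_two]
      group
    rw [e, h.2]
    group
  | one => simpa using Subgroup.one_mem _
  | mul a b ha hb iha ihb =>
    have e : g * (a * b) * g⁻¹ = (g * a * g⁻¹) * (g * b * g⁻¹) := by group
    rw [e]
    exact Subgroup.mul_mem _ iha ihb
  | inv a ha ih =>
    have e : g * a⁻¹ * g⁻¹ = (g * a * g⁻¹)⁻¹ := by group
    rw [e]
    exact Subgroup.inv_mem _ ih

end omega

section moved

variable {H L : Subgroup G}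

/-- If `L` acts nontrivially on `Ω₁(Z(O₂(L)))`, then it already does on the fixed points there of `O₂(H)`. -/
theorem exists_fixed_moved (hLH : L ≤ H) (hsn : (L.subgroupOf H).IsSubnormal)
    (hperf : ⁅L.subgroupOf H, L.subgroupOf H⁆ = L.subgroupOf H) (hne : moduleV L ≠ ⊥) :
    ∃ v ∈ omegaOne 2 (pCoreTwoOf L ⊓ centralizer (pCoreTwoOf L : Set G)),
      (∀ r ∈ pCoreTwoOf H, r * v = v * r) ∧ ∃ l ∈ L, v * l ≠ l * v := by
  classical
  haveI : Fact (Nat.Prime 2) := ⟨Nat.prime_two⟩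
  by_contra hcon
  push Not at hcon
  set O₀ := pCoreTwoOf L with hO₀
  set A₀ : Subgroup G := O₀ ⊓ centralizer (O₀ : Set G) with hA₀
  set V : Subgroup G := omegaOne 2 A₀ with hV
  set R := pCoreTwoOf H with hR
  have hL' : ⁅L, L⁆ = L := perfect_of_subgroupOf hLH hperf
  have hOR : O₀ ≤ R := pCoreTwoOf_le_of_subnormal hLH hsn
  have hOL : O₀ ≤ L := pCoreTwoOf_le_self L
  have hVA : V ≤ A₀ := omegaOne_le
  have hVO : V ≤ O₀ := hVA.trans inf_le_left
  have hVL : V ≤ L := hVO.trans hOL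
  have hAcomm : ∀ a ∈ A₀, ∀ b ∈ A₀, a * b = b * a := fun a ha b hb =>
    (mem_centralizer_iff.mp ha.2 b hb.1).symm
  have hVO' : ∀ v ∈ V, ∀ o ∈ O₀, o * v = v * o := fun v hv o ho =>
    mem_centralizer_iff.mp (hVA hv).2 o ho
  have hRL : ∀ r ∈ R, ∀ l ∈ L, r * l * r⁻¹ ∈ L := fun r hr l hl =>
    conj_mem_of_mem_pCoreTwoOf hLH hsn hperf hr hl
  have hRN : ∀ r ∈ R, r ∈ normalizer (L : Set G) := by
    intro r hr
    rw [mem_normalizer_iff]
    intro l
    constructor
    · exact hRL r hr l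
    · intro h
      have h1 := hRL r⁻¹ (R.inv_mem hr) _ h
      have e : r⁻¹ * (r * l * r⁻¹) * r⁻¹⁻¹ = l := by group
      rwa [e] at h1
  -- normalizing L preserves V
  have hAconj : ∀ g ∈ normalizer (L : Set G), ∀ a ∈ A₀, g * a * g⁻¹ ∈ A₀ := by
    intro g hg a ha
    refine ⟨conj_mem_pCoreTwoOf_of_normalizes hg ha.1, ?_⟩
    show g * a * g⁻¹ ∈ centralizer (O₀ : Set G)
    rw [mem_centralizer_iff]
    intro o ho
    have h1 : g⁻¹ * o * g ∈ O₀ := by
      have := conj_mem_pCoreTwoOf_of_normalizes ((normalizer (L : Set G)).inv_mem hg) ho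
      simpa using this
    have h2 := mem_centralizer_iff.mp ha.2 _ h1
    calc o * (g * a * g⁻¹) = g * ((g⁻¹ * o * g) * a) * g⁻¹ := by group
      _ = g * (a * (g⁻¹ * o * g)) * g⁻¹ := by rw [h2]
      _ = g * a * g⁻¹ * o := by group
  have hVconj : ∀ g ∈ normalizer (L : Set G), ∀ v ∈ V, g * v * g⁻¹ ∈ V := fun g hg v hv =>
    conj_mem_omegaOne (hAconj g hg) hv
  -- the centralizer of L in V
  set S : Subgroup G := V ⊓ centralizer (L : Set G) with hS
  have hSconj : ∀ r ∈ R, ∀ s ∈ S, r * s * r⁻¹ ∈ S := by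
    intro r hr s hs
    refine ⟨hVconj r (hRN r hr) s hs.1, ?_⟩
    show r * s * r⁻¹ ∈ centralizer (L : Set G)
    rw [mem_centralizer_iff]
    intro l hl
    have h1 : r⁻¹ * l * r ∈ L := by
      have := hRL r⁻¹ (R.inv_mem hr) l hl
      simpa using this
    have h2 := mem_centralizer_iff.mp hs.2 _ h1
    calc l * (r * s * r⁻¹) = r * ((r⁻¹ * l * r) * s) * r⁻¹ := by group
      _ = r * (s * (r⁻¹ * l * r)) * r⁻¹ := by rw [h2]
      _ = r * s * r⁻¹ * l := by group
  have hVS : V ≤ S := by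
    by_contra hVS
    have hRp : IsPGroup 2 R := isPGroup_pCoreTwoOf H
    let Sh : Subgroup R := S.subgroupOf R
    haveI hSh : Sh.Normal := by
      constructor
      rintro ⟨s, hs⟩ hs' ⟨r, hr⟩
      exact hSconj r hr s hs'
    let Vh : Subgroup R := V.subgroupOf R
    haveI hVh : Vh.Normal := by
      constructor
      rintro ⟨s, hs⟩ hs' ⟨r, hr⟩
      exact hVconj r (hRN r hr) s hs'
    haveI hnil : Group.IsNilpotent (R ⧸ Sh) := (hRp.to_quotient Sh).isNilpotent
    have hD : Vh.map (QuotientGroup.mk' Sh) ≠ ⊥ := by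
      intro h
      apply hVS
      intro v hv
      have h1 : QuotientGroup.mk' Sh (⟨v, hOR (hVO hv)⟩ : R) ∈ Vh.map (QuotientGroup.mk' Sh) := ⟨_, hv, rfl⟩
      rw [h, Subgroup.mem_bot, ← MonoidHom.mem_ker, QuotientGroup.ker_mk'] at h1
      exact h1
    haveI hDn : (Vh.map (QuotientGroup.mk' Sh)).Normal := hVh.map _ (QuotientGroup.mk'_surjective _)
    have h1 := Cfsg.Agent.Lib.Basic.normal_inf_center_ne_bot (Vh.map (QuotientGroup.mk' Sh)) hD
    obtain ⟨⟨q, ⟨vh, hvh, rfl⟩, hqz⟩, hq1⟩ := (Subgroup.ne_bot_iff_exists_ne_one).mp h1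
    set v : G := (vh : G) with hv
    have hvV : v ∈ V := hvh
    have hvS : v ∉ S := by
      intro hvS
      apply hq1
      apply Subtype.ext
      show QuotientGroup.mk' Sh vh = 1
      rw [← MonoidHom.mem_ker, QuotientGroup.ker_mk']
      exact hvS
    have hs : ∀ r ∈ R, r * v * r⁻¹ * v⁻¹ ∈ S := by
      intro r hr
      have h2 := Subgroup.mem_center_iff.mp hqz (QuotientGroup.mk' Sh ⟨r, hr⟩)
      have h3 : QuotientGroup.mk' Sh (⟨r, hr⟩ * vh * ⟨r, hr⟩⁻¹ * vh⁻¹) = 1 := by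
        simp only [map_mul, map_inv]
        rw [h2]
        group
      rw [← MonoidHom.mem_ker, QuotientGroup.ker_mk'] at h3
      exact h3
    apply hvS
    refine ⟨hvV, ?_⟩
    show v ∈ centralizer (L : Set G)
    have hvL : ∀ l ∈ L, v * l = l * v := by
      have hcV : ∀ l ∈ L, v * l * v⁻¹ * l⁻¹ ∈ V := by
        intro l hl
        have e : v * l * v⁻¹ * l⁻¹ = v * (l * v⁻¹ * l⁻¹) := by group
        rw [e]
        exact V.mul_mem hvV (hVconj l (le_normalizer hl) _ (V.inv_mem hvV))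
      have hcR : ∀ l ∈ L, ∀ r ∈ R, r * (v * l * v⁻¹ * l⁻¹) = (v * l * v⁻¹ * l⁻¹) * r := by
        intro l hl r hr
        set s := r * v * r⁻¹ * v⁻¹ with hsdef
        set o := r * l * r⁻¹ * l⁻¹ with hodef
        have hsS : s ∈ S := hs r hr
        have hoO : o ∈ O₀ := comm_mem_pCoreTwoOf hLH hsn hperf hr hl
        have hsc : ∀ m ∈ L, m * s = s * m := fun m hm => mem_centralizer_iff.mp hsS.2 m hm
        have hc := hcV l hl
        have h1 := hVO' _ hc o hoO
        have h2 := hVO' v hvV o hoO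
        have h3 := hsc v (hVL hvV)
        have h4 := hsc o (hOL hoO)
        have h5 := hsc l hl
        have e1 : r * v * r⁻¹ = s * v := by rw [hsdef]; group
        have e2 : r * l * r⁻¹ = o * l := by rw [hodef]; group
        have key : r * (v * l * v⁻¹ * l⁻¹) * r⁻¹ = v * l * v⁻¹ * l⁻¹ := by
          calc r * (v * l * v⁻¹ * l⁻¹) * r⁻¹
              = (r * v * r⁻¹) * (r * l * r⁻¹) * (r * v * r⁻¹)⁻¹ * (r * l * r⁻¹)⁻¹ := by group
            _ = (s * v) * (o * l) * (s * v)⁻¹ * (o * l)⁻¹ := by rw [e1, e2]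
            _ = s * (v * o * l) * v⁻¹ * s⁻¹ * l⁻¹ * o⁻¹ := by group
            _ = (v * o * l) * s * v⁻¹ * s⁻¹ * l⁻¹ * o⁻¹ := by
                have : s * (v * o * l) = (v * o * l) * s := by
                  have h6 : (v * o * l) * s = s * (v * o * l) := by
                    calc (v * o * l) * s = v * o * (l * s) := by group
                      _ = v * o * (s * l) := by rw [h5]
                      _ = v * (o * s) * l := by group
                      _ = v * (s * o) * l := by rw [h4]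
                      _ = (v * s) * o * l := by group
                      _ = (s * v) * o * l := by rw [h3]
                      _ = s * (v * o * l) := by group
                  exact h6.symm
                rw [this]
            _ = (v * o * l) * (s * v⁻¹ * s⁻¹) * l⁻¹ * o⁻¹ := by group
            _ = (v * o * l) * v⁻¹ * l⁻¹ * o⁻¹ := by
                have : s * v⁻¹ * s⁻¹ = v⁻¹ := by
                  have h6 : s * v = v * s := h3.symm
                  have h7 : s * v⁻¹ = v⁻¹ * s := by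
                    calc s * v⁻¹ = v⁻¹ * (v * s) * v⁻¹ := by group
                      _ = v⁻¹ * (s * v) * v⁻¹ := by rw [h6]
                      _ = v⁻¹ * s := by group
                  rw [h7]
                  group
                rw [this]
            _ = (v * o) * (l * v⁻¹ * l⁻¹) * o⁻¹ := by group
            _ = (o * v) * (l * v⁻¹ * l⁻¹) * o⁻¹ := by rw [h2]
            _ = o * (v * l * v⁻¹ * l⁻¹) * o⁻¹ := by group
            _ = (v * l * v⁻¹ * l⁻¹) * o * o⁻¹ := by rw [h1]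
            _ = v * l * v⁻¹ * l⁻¹ := by group
        calc r * (v * l * v⁻¹ * l⁻¹) = (r * (v * l * v⁻¹ * l⁻¹) * r⁻¹) * r := by group
          _ = (v * l * v⁻¹ * l⁻¹) * r := by rw [key]
      exact commute_of_central_commutator hL' v
        (fun l hl => L.mul_mem (L.mul_mem (L.mul_mem (hVL hvV) hl) (L.inv_mem (hVL hvV))) (L.inv_mem hl))
        (fun l hl m hm => hcon _ (hcV l hl) (hcR l hl) m hm)
    rw [mem_centralizer_iff]
    intro l hl
    exact (hvL l hl).symm
  apply hne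
  exact commutator_eq_bot_of_commutes (fun v hv l hl => (mem_centralizer_iff.mp (hVS hv).2 l hl).symm)

/-- The internal module is nontrivial as soon as an involution of `Z(O₂(H))` is moved by `L`. -/
theorem moduleV_ne_bot_of (hLH : L ≤ H) (hsn : (L.subgroupOf H).IsSubnormal)
    (hperf : ⁅L.subgroupOf H, L.subgroupOf H⁆ = L.subgroupOf H) {v : G} (hv : v ∈ pCoreTwoOf H)
    (hv2 : v ^ 2 = 1) (hvc : ∀ r ∈ pCoreTwoOf H, r * v = v * r) {l : G} (hl : l ∈ L)
    (hvl : v * l ≠ l * v) : moduleV L ≠ ⊥ := by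
  intro hbot
  apply hvl
  have hL' : ⁅L, L⁆ = L := perfect_of_subgroupOf hLH hperf
  have hOR : pCoreTwoOf L ≤ pCoreTwoOf H := pCoreTwoOf_le_of_subnormal hLH hsn
  have hinv : v⁻¹ = v := by
    rw [inv_eq_iff_mul_eq_one, ← pow_two, hv2]
  refine commute_of_central_commutator hL' v ?_ ?_ l hl
  · intro k hk
    exact L.mul_mem (conj_mem_of_mem_pCoreTwoOf hLH hsn hperf hv hk) (L.inv_mem hk)
  · intro k hk m hm
    have hc1 : v * k * v⁻¹ * k⁻¹ ∈ pCoreTwoOf L := comm_mem_pCoreTwoOf hLH hsn hperf hv hk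
    -- w = k v⁻¹ k⁻¹ is central in O₂(H)
    have hw : k * v⁻¹ * k⁻¹ ∈ pCoreTwoOf H := conj_mem_pCoreTwoOf (hLH hk) ((pCoreTwoOf H).inv_mem hv)
    have hwc : ∀ r ∈ pCoreTwoOf H, r * (k * v⁻¹ * k⁻¹) = (k * v⁻¹ * k⁻¹) * r := by
      intro r hr
      have h1 : k⁻¹ * r * k ∈ pCoreTwoOf H := by
        have := conj_mem_pCoreTwoOf (g := k⁻¹) (hLH (L.inv_mem hk)) hr
        simpa using this
      have h2 := hvc _ h1
      rw [hinv]
      calc r * (k * v * k⁻¹) = k * ((k⁻¹ * r * k) * v) * k⁻¹ := by group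
        _ = k * (v * (k⁻¹ * r * k)) * k⁻¹ := by rw [h2]
        _ = k * v * k⁻¹ * r := by group
    have hcc : ∀ r ∈ pCoreTwoOf H, r * (v * k * v⁻¹ * k⁻¹) = (v * k * v⁻¹ * k⁻¹) * r := by
      intro r hr
      have e : v * k * v⁻¹ * k⁻¹ = v * (k * v⁻¹ * k⁻¹) := by group
      rw [e]
      calc r * (v * (k * v⁻¹ * k⁻¹)) = (r * v) * (k * v⁻¹ * k⁻¹) := by group
        _ = (v * r) * (k * v⁻¹ * k⁻¹) := by rw [hvc r hr]
        _ = v * (r * (k * v⁻¹ * k⁻¹)) := by group
        _ = v * ((k * v⁻¹ * k⁻¹) * r) := by rw [hwc r hr]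
        _ = v * (k * v⁻¹ * k⁻¹) * r := by group
    have hsq : (v * k * v⁻¹ * k⁻¹) ^ 2 = 1 := by
      have e : v * k * v⁻¹ * k⁻¹ = v * (k * v⁻¹ * k⁻¹) := by group
      rw [e]
      have hc : Commute v (k * v⁻¹ * k⁻¹) := (hvc _ hw).symm
      rw [hc.mul_pow, hv2]
      have e2 : (k * v⁻¹ * k⁻¹) ^ 2 = k * (v⁻¹) ^ 2 * k⁻¹ := by
        rw [pow_two, pow_two]
        group
      rw [e2, hinv, hv2]
      group
    have hmem : v * k * v⁻¹ * k⁻¹ ∈
        omegaOne 2 (pCoreTwoOf L ⊓ centralizer (pCoreTwoOf L : Set G)) := by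
      apply mem_omegaOne_of _ hsq
      refine ⟨hc1, ?_⟩
      show v * k * v⁻¹ * k⁻¹ ∈ centralizer (pCoreTwoOf L : Set G)
      rw [mem_centralizer_iff]
      intro o ho
      exact hcc o (hOR ho)
    have h3 := commutes_of_commutator_eq_bot hbot _ hmem m hm
    exact h3

end moved

section oddgen

theorem oddGenerated_le (K : Subgroup G) : oddGenerated K ≤ K := by
  rw [oddGenerated, Subgroup.closure_le]
  exact fun _ h => h.1

theorem conj_mem_oddGenerated {K : Subgroup G} {g x : G} (hg : g ∈ K) (hx : x ∈ oddGenerated K) :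
    g * x * g⁻¹ ∈ oddGenerated K := by
  induction hx using Subgroup.closure_induction with
  | mem x h =>
    apply Subgroup.subset_closure
    refine ⟨K.mul_mem (K.mul_mem hg h.1) (K.inv_mem hg), ?_⟩
    have e : orderOf (g * x * g⁻¹) = orderOf x := by
      have : g * x * g⁻¹ = MulAut.conj g x := rfl
      rw [this, MulEquiv.orderOf_eq]
    rw [e]
    exact h.2
  | one => simpa using Subgroup.one_mem _
  | mul a b ha hb iha ihb =>
    have e : g * (a * b) * g⁻¹ = (g * a * g⁻¹) * (g * b * g⁻¹) := by group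
    rw [e]
    exact Subgroup.mul_mem _ iha ihb
  | inv a ha ih =>
    have e : g * a⁻¹ * g⁻¹ = (g * a * g⁻¹)⁻¹ := by group
    rw [e]
    exact Subgroup.inv_mem _ ih

theorem oddGenerated_eq_of_perfect {K : Subgroup G} (hK : ⁅K, K⁆ = K) : oddGenerated K = K := by
  classical
  haveI : Fact (Nat.Prime 2) := ⟨Nat.prime_two⟩
  apply le_antisymm (oddGenerated_le K)
  let O : Subgroup K := (oddGenerated K).subgroupOf K
  haveI hO : O.Normal := by
    constructor
    rintro ⟨x, hx⟩ hx' ⟨g, hg⟩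
    exact conj_mem_oddGenerated hg hx'
  have hp : IsPGroup 2 (K ⧸ O) := by
    intro q
    obtain ⟨x, rfl⟩ := QuotientGroup.mk_surjective q
    have hne : orderOf x ≠ 0 := (orderOf_pos x).ne'
    obtain ⟨a, m, hm, ham⟩ := Nat.exists_eq_two_pow_mul_odd hne
    refine ⟨a, ?_⟩
    rw [← QuotientGroup.mk_pow, QuotientGroup.eq_one_iff]
    show ((x ^ 2 ^ a : K) : G) ∈ oddGenerated K
    apply Subgroup.subset_closure
    refine ⟨(x ^ 2 ^ a : K).2, ?_⟩
    have h2 : orderOf ((x ^ 2 ^ a : K) : G) = orderOf (x ^ 2 ^ a : K) := Subgroup.orderOf_coe _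
    rw [h2, orderOf_pow_of_dvd (by positivity) (Dvd.intro _ ham.symm)]
    rw [ham, Nat.mul_div_cancel_left _ (by positivity)]
    exact hm
  have hperf : ⁅(⊤ : Subgroup (K ⧸ O)), (⊤ : Subgroup (K ⧸ O))⁆ = ⊤ := by
    have h1 : ⁅(⊤ : Subgroup K), (⊤ : Subgroup K)⁆ = ⊤ := by
      apply Subgroup.map_injective K.subtype_injective
      rw [Subgroup.map_commutator, ← MonoidHom.range_eq_map, Subgroup.range_subtype, hK]
    have h2 := congrArg (Subgroup.map (QuotientGroup.mk' O)) h1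
    rw [Subgroup.map_commutator, ← MonoidHom.range_eq_map,
      MonoidHom.range_eq_top.mpr (QuotientGroup.mk'_surjective O)] at h2
    exact h2
  have hbot := eq_bot_of_perfect_of_solvable (le_refl (⊤ : Subgroup (K ⧸ O)))
    (isSolvable_of_isPGroup (p := 2) (hp.to_subgroup ⊤)) hperf
  intro x hx
  have h3 : (QuotientGroup.mk (⟨x, hx⟩ : K) : K ⧸ O) ∈ (⊤ : Subgroup (K ⧸ O)) := Subgroup.mem_top _
  rw [hbot, Subgroup.mem_bot, QuotientGroup.eq_one_iff] at h3
  exact h3

end oddgen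

section overgroup

variable (T : Sylow 2 G)

theorem le_sylow_of_normalized {A : Subgroup G} (hA : IsPGroup 2 A)
    (hn : ∀ t ∈ (T : Subgroup G), ∀ a ∈ A, t * a * t⁻¹ ∈ A) : A ≤ T := by
  have h1 : (T : Subgroup G) ≤ normalizer (A : Set G) := by
    intro t ht
    rw [mem_normalizer_iff]
    intro a
    constructor
    · exact hn t ht a
    · intro h
      have h2 := hn t⁻¹ ((T : Subgroup G).inv_mem ht) _ h
      have e : t⁻¹ * (t * a * t⁻¹) * t⁻¹⁻¹ = a := by group
      rwa [e] at h2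
  have h2 := IsPGroup.to_sup_of_normal_right' T.isPGroup' hA h1
  have h3 := T.is_maximal' h2 le_sup_left
  rw [← h3]
  exact le_sup_right

/-- The main step: overgroups in `ℒ(G, T)` of members of `ℒ_f(G, T)` are in `ℒ_f(G, T)`. -/
theorem mem_calLf_of_le (hQ : IsOfEvenCharacteristic G) {L K : Subgroup G}
    (hL : L ∈ calLf (T : Subgroup G)) (hK : K ∈ calL (T : Subgroup G)) (hLK : L ≤ K) :
    K ∈ calLf (T : Subgroup G) := by
  classical
  haveI : Fact (Nat.Prime 2) := ⟨Nat.prime_two⟩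
  refine ⟨hK, ?_⟩
  obtain ⟨⟨hKne, hKperf, hKsn, -⟩, -, hKcore⟩ := hK
  obtain ⟨⟨⟨hLne, hLperf, hLsn, -⟩, -, hLcore⟩, ⟨-, hLmod⟩⟩ := hL
  set H₂ : Subgroup G := K ⊔ (T : Subgroup G) with hH₂
  set H₁ : Subgroup G := L ⊔ (T : Subgroup G) with hH₁
  have hKH₂ : K ≤ H₂ := le_sup_left
  have hTH₂ : (T : Subgroup G) ≤ H₂ := le_sup_right
  have hLH₁ : L ≤ H₁ := le_sup_left
  have hTH₁ : (T : Subgroup G) ≤ H₁ := le_sup_right
  have hH₁₂ : H₁ ≤ H₂ := sup_le_sup_right hLK _
  set R₂ := pCoreTwoOf H₂ with hR₂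
  set R₁ := pCoreTwoOf H₁ with hR₁
  have hR₂T : R₂ ≤ T := le_sylow_of_normalized T (isPGroup_pCoreTwoOf H₂)
    (fun t ht a ha => conj_mem_pCoreTwoOf (hTH₂ ht) ha)
  have hR₁T : R₁ ≤ T := le_sylow_of_normalized T (isPGroup_pCoreTwoOf H₁)
    (fun t ht a ha => conj_mem_pCoreTwoOf (hTH₁ ht) ha)
  have hR₂R₁ : R₂ ≤ R₁ := le_pCoreTwoOf (hR₂T.trans hTH₁) (isPGroup_pCoreTwoOf H₂)
    (fun y hy a ha => conj_mem_pCoreTwoOf (hH₁₂ hy) ha)
  have hR₂ne : R₂ ≠ ⊥ := by
    intro h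
    apply hKcore
    exact (Subgroup.map_eq_bot_iff_of_injective _ H₂.subtype_injective).mp h
  -- `F1`
  have hF1 : ∀ x ∈ H₂, (∀ r ∈ R₂, r * x = x * r) → x ∈ R₂ := by
    intro x hx hxc
    set M : Subgroup G := normalizer (R₂ : Set G) with hM
    have hH₂M : H₂ ≤ M := by
      intro g hg
      rw [hM, mem_normalizer_iff]
      intro a
      constructor
      · exact conj_mem_pCoreTwoOf hg
      · intro h
        have h2 := conj_mem_pCoreTwoOf (H₂.inv_mem hg) h
        have e : g⁻¹ * (g * a * g⁻¹) * g⁻¹⁻¹ = a := by group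
        rwa [e] at h2
    have h2loc : IsTwoLocal M := ⟨R₂, isPGroup_pCoreTwoOf H₂, hR₂ne, rfl⟩
    have hchar : IsOfCharacteristicTwo M := hQ M h2loc ⟨T, hTH₂.trans hH₂M⟩
    have hQT : pCoreTwoOf M ≤ T := le_sylow_of_normalized T (isPGroup_pCoreTwoOf M)
      (fun t ht a ha => conj_mem_pCoreTwoOf (hH₂M (hTH₂ ht)) ha)
    have hQR : pCoreTwoOf M ≤ R₂ := le_pCoreTwoOf (hQT.trans hTH₂) (isPGroup_pCoreTwoOf M)
      (fun y hy a ha => conj_mem_pCoreTwoOf (hH₂M hy) ha)
    have h1 : (⟨x, hH₂M hx⟩ : M) ∈ centralizer (pCore 2 M : Set M) := by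
      rw [mem_centralizer_iff]
      intro z hz
      apply Subtype.ext
      exact hxc _ (hQR ⟨z, hz, rfl⟩)
    exact hQR ⟨_, hchar h1, rfl⟩
  have hPT : IsPType 2 H₂ := by
    apply isPType_of_centralizer_pCore_le
    intro x hx
    rw [mem_centralizer_iff] at hx
    have h1 : (x : G) ∈ R₂ := by
      apply hF1 _ x.2
      rintro _ ⟨z, hz, rfl⟩
      exact congrArg Subtype.val (hx z hz)
    obtain ⟨z, hz, hze⟩ := h1
    have : z = x := Subtype.ext hze
    rwa [← this]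
  have hKPT : IsPType 2 K :=
    isPType_congr (Subgroup.subgroupOfEquivOfLe hKH₂) (isPType_of_subnormal hPT hKsn)
  have hKperf' : ⁅K, K⁆ = K := perfect_of_subgroupOf hKH₂ hKperf
  have hKne' : K ≠ ⊥ := by
    rintro rfl
    apply hKne
    exact Subgroup.bot_subgroupOf _
  refine ⟨⟨hKne', oddGenerated_eq_of_perfect hKperf', isPType_iff.mp hKPT⟩, ?_⟩
  -- the module
  obtain ⟨v, hvV, hvR, l, hl, hvl⟩ := exists_fixed_moved hLH₁ hLsn hLperf hLmod
  have hvA := omegaOne_le hvV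
  have hv2 : v ^ 2 = 1 := by
    refine sq_eq_one_of_mem_omegaOne ?_ hvV
    intro a ha b hb
    exact (mem_centralizer_iff.mp ha.2 b hb.1).symm
  have hvR₁ : v ∈ R₁ := pCoreTwoOf_le_of_subnormal hLH₁ hLsn hvA.1
  have hvR₂ : v ∈ R₂ := by
    apply hF1 _ (hTH₂ (hR₁T hvR₁))
    intro r hr
    exact hvR r (hR₂R₁ hr)
  exact moduleV_ne_bot_of hKH₂ hKsn hKperf hvR₂ hv2 (fun r hr => hvR r (hR₂R₁ hr)) (hLK hl) hvl

end overgroup

end Cfsg.Agent.Lib.TwoFusion
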