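import Mathlib
import Cfsg.Agent.Lib.TwoFusion.TI

/-!
# Pairs of 2-subgroups with commuting distinct conjugates

Elementwise analysis of two subgroups `R`, `T` of a group such that conjugates of `R` under `T`
are equal to `R` or commute with it and meet it trivially, and symmetrically.  The main result
(`PairData.core`): if neither normalizes the other then one of them has all squares trivial.
-/

set_option autoImplicit false

namespace Cfsg.Agent.Lib.TwoFusion

variable {G : Type*} [Group G]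

/-- Data for two 2-subgroups whose distinct mutual conjugates commute and meet trivially. -/
structure PairData (R T : Subgroup G) : Prop where
  disj : R ⊓ T = ⊥
  F1 : ∀ r ∈ R, r ∉ Subgroup.normalizer (T : Set G) → ∀ x ∈ T, r * x = x * r → x = 1
  F2 : ∀ t ∈ T, t ∉ Subgroup.normalizer (R : Set G) → ∀ x ∈ R, t * x = x * t → x = 1
  C1 : ∀ r ∈ R, r ∉ Subgroup.normalizer (T : Set G) → ∀ x ∈ T, ∀ y ∈ T,
    x * (r * y * r⁻¹) = (r * y * r⁻¹) * x
  C2 : ∀ t ∈ T, t ∉ Subgroup.normalizer (R : Set G) → ∀ x ∈ R, ∀ y ∈ R,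
    x * (t * y * t⁻¹) = (t * y * t⁻¹) * x
  pR : IsPGroup 2 R
  pT : IsPGroup 2 T

namespace PairData

variable {R T : Subgroup G}

theorem swap (h : PairData R T) : PairData T R where
  disj := by rw [inf_comm]; exact h.disj
  F1 := h.F2
  F2 := h.F1
  C1 := h.C2
  C2 := h.C1
  pR := h.pT
  pT := h.pR

variable {r t : G}

theorem c_comm_r (h : PairData R T) (hr : r ∈ R) (ht : t ∈ T)
    (htN : t ∉ Subgroup.normalizer (R : Set G)) :
    r * (r * t * r⁻¹ * t⁻¹) = (r * t * r⁻¹ * t⁻¹) * r := by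
  have h1 := h.C2 t ht htN r hr r⁻¹ (R.inv_mem hr)
  calc r * (r * t * r⁻¹ * t⁻¹) = r * (r * (t * r⁻¹ * t⁻¹)) := by group
    _ = r * ((t * r⁻¹ * t⁻¹) * r) := by rw [h1]
    _ = (r * t * r⁻¹ * t⁻¹) * r := by group

theorem c_comm_t (h : PairData R T) (hr : r ∈ R) (ht : t ∈ T)
    (hrN : r ∉ Subgroup.normalizer (T : Set G)) :
    t * (r * t * r⁻¹ * t⁻¹) = (r * t * r⁻¹ * t⁻¹) * t := by
  have h1 := h.C1 r hr hrN t ht t ht
  calc t * (r * t * r⁻¹ * t⁻¹) = (t * (r * t * r⁻¹)) * t⁻¹ := by group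
    _ = ((r * t * r⁻¹) * t) * t⁻¹ := by rw [h1]
    _ = (r * t * r⁻¹ * t⁻¹) * t := by group

theorem pow_conj (h : PairData R T) (hr : r ∈ R) (ht : t ∈ T)
    (htN : t ∉ Subgroup.normalizer (R : Set G)) (n : ℕ) :
    r ^ n * t * (r ^ n)⁻¹ = (r * t * r⁻¹ * t⁻¹) ^ n * t := by
  have hc : Commute r (r * t * r⁻¹ * t⁻¹) := h.c_comm_r hr ht htN
  induction n with
  | zero => simp
  | succ n ih =>
    have e : r * (((r * t * r⁻¹ * t⁻¹) ^ n) * t) * r⁻¹ =
        (r * t * r⁻¹ * t⁻¹) ^ n * (r * t * r⁻¹) := by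
      have := (hc.pow_right n).eq
      calc r * (((r * t * r⁻¹ * t⁻¹) ^ n) * t) * r⁻¹
          = (r * (r * t * r⁻¹ * t⁻¹) ^ n) * (t * r⁻¹) := by group
        _ = ((r * t * r⁻¹ * t⁻¹) ^ n * r) * (t * r⁻¹) := by rw [this]
        _ = (r * t * r⁻¹ * t⁻¹) ^ n * (r * t * r⁻¹) := by group
    calc r ^ (n + 1) * t * (r ^ (n + 1))⁻¹ = r * (r ^ n * t * (r ^ n)⁻¹) * r⁻¹ := by
          rw [pow_succ']; group
      _ = r * (((r * t * r⁻¹ * t⁻¹) ^ n) * t) * r⁻¹ := by rw [ih]
      _ = (r * t * r⁻¹ * t⁻¹) ^ n * (r * t * r⁻¹) := e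
      _ = (r * t * r⁻¹ * t⁻¹) ^ (n + 1) * t := by
        rw [pow_succ]; group

/-- The powers of `r` normalizing `T` are trivial. -/
theorem pow_eq_one (h : PairData R T) (hr : r ∈ R) (ht : t ∈ T)
    (hrN : r ∉ Subgroup.normalizer (T : Set G)) (htN : t ∉ Subgroup.normalizer (R : Set G))
    (n : ℕ) (hn : r ^ n ∈ Subgroup.normalizer (T : Set G)) : r ^ n = 1 := by
  have h1 := h.pow_conj hr ht htN n
  have hc : Commute r (r * t * r⁻¹ * t⁻¹) := h.c_comm_r hr ht htN
  have h2 : (r * t * r⁻¹ * t⁻¹) ^ n ∈ T := by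
    have : (r * t * r⁻¹ * t⁻¹) ^ n = (r ^ n * t * (r ^ n)⁻¹) * t⁻¹ := by
      rw [h1]; group
    rw [this]
    exact T.mul_mem ((Subgroup.mem_normalizer_iff.mp hn t).mp ht) (T.inv_mem ht)
  have h3 : (r * t * r⁻¹ * t⁻¹) ^ n = 1 :=
    h.F1 r hr hrN _ h2 (hc.pow_right n).eq
  rw [h3, one_mul] at h1
  have h4 : t * r ^ n = r ^ n * t := by
    calc t * r ^ n = (r ^ n * t * (r ^ n)⁻¹) * r ^ n := by rw [h1]
      _ = r ^ n * t := by group
  exact h.F2 t ht htN _ (R.pow_mem hr n) h4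

/-- If `r` and `t` do not normalize the other subgroup then `t` is an involution. -/
theorem t_sq (h : PairData R T) (hr : r ∈ R) (ht : t ∈ T)
    (hrN : r ∉ Subgroup.normalizer (T : Set G)) (htN : t ∉ Subgroup.normalizer (R : Set G)) :
    t * t = 1 := by
  have hr1 : r ≠ 1 := by
    rintro rfl
    exact hrN (Subgroup.one_mem _)
  obtain ⟨a, ha⟩ := IsPGroup.iff_orderOf.mp h.pR ⟨r, hr⟩
  have ha' : orderOf r = 2 ^ a := by
    rw [← ha]; exact (Subgroup.orderOf_mk r hr).symm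
  have ha0 : a ≠ 0 := by
    rintro rfl
    simp at ha'
    exact hr1 ha'
  obtain ⟨b, rfl⟩ := Nat.exists_eq_succ_of_ne_zero ha0
  set s := r ^ 2 ^ b with hs
  have hs1 : s ≠ 1 := by
    intro h1
    have h2 := orderOf_dvd_of_pow_eq_one h1
    rw [ha'] at h2
    have := Nat.le_of_dvd (by positivity) h2
    rw [pow_succ] at this
    have : 0 < 2 ^ b := by positivity
    omega
  have hs2 : s * s = 1 := by
    rw [hs, ← pow_add, ← two_mul, ← pow_succ', ← ha', pow_orderOf_eq_one]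
  have hsR : s ∈ R := R.pow_mem hr _
  have hsN : s ∉ Subgroup.normalizer (T : Set G) := fun hN => hs1 (h.pow_eq_one hr ht hrN htN _ hN)
  have h1 := h.pow_conj hsR ht htN 2
  have hs2' : s ^ 2 = 1 := by rwa [pow_two]
  rw [hs2', one_mul, inv_one, mul_one] at h1
  set c := s * t * s⁻¹ * t⁻¹ with hc
  have hct : t * c = c * t := h.c_comm_t hsR ht hsN
  have hc2 : c ^ 2 = 1 := by
    have : c ^ 2 * t = 1 * t := by rw [← h1, one_mul]
    exact mul_right_cancel this
  have e : s * t * s⁻¹ = c * t := by rw [hc]; group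
  have h5 : s * (t * t) = (t * t) * s := by
    have e2 : s * (t * t) * s⁻¹ = t * t := by
      calc s * (t * t) * s⁻¹ = (s * t * s⁻¹) * (s * t * s⁻¹) := by group
        _ = (c * t) * (c * t) := by rw [e]
        _ = c * (t * c) * t := by group
        _ = c * (c * t) * t := by rw [hct]
        _ = c ^ 2 * (t * t) := by rw [pow_two]; group
        _ = t * t := by rw [hc2, one_mul]
    calc s * (t * t) = (s * (t * t) * s⁻¹) * s := by group
      _ = (t * t) * s := by rw [e2]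
  exact h.F1 s hsR hsN _ (T.mul_mem ht ht) h5

theorem r_sq (h : PairData R T) (hr : r ∈ R) (ht : t ∈ T)
    (hrN : r ∉ Subgroup.normalizer (T : Set G)) (htN : t ∉ Subgroup.normalizer (R : Set G)) :
    r * r = 1 := h.swap.t_sq ht hr htN hrN

/-- inversion -/
theorem invert (h : PairData R T) {t₀ : G} (ht₀ : t₀ ∈ T)
    (ht₀N : t₀ ∉ Subgroup.normalizer (R : Set G)) {y : G} (hr : r ∈ R)
    (hrN : r ∉ Subgroup.normalizer (T : Set G)) (hy : y ∈ R)
    (hyN : y ∈ Subgroup.normalizer (T : Set G)) : r * y * r = y⁻¹ := by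
  have hry : r * y ∉ Subgroup.normalizer (T : Set G) := by
    intro hh
    apply hrN
    have : r = (r * y) * y⁻¹ := by group
    rw [this]
    exact Subgroup.mul_mem _ hh (Subgroup.inv_mem _ hyN)
  have h1 := h.r_sq (R.mul_mem hr hy) ht₀ hry ht₀N
  have h2 : r * y * r * y = 1 := by
    rw [← h1]; group
  exact eq_inv_of_mul_eq_one_left h2

/-- Two elements of `R` outside `N(T)` have product in `N(T)`, if `R` is not of exponent 2. -/
theorem prod_mem (h : PairData R T) {t₀ : G} (ht₀ : t₀ ∈ T)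
    (ht₀N : t₀ ∉ Subgroup.normalizer (R : Set G)) (hx : ∃ x ∈ R, x * x ≠ 1)
    {r₁ r₂ : G} (hr₁ : r₁ ∈ R) (hr₂ : r₂ ∈ R) (hr₁N : r₁ ∉ Subgroup.normalizer (T : Set G))
    (hr₂N : r₂ ∉ Subgroup.normalizer (T : Set G)) :
    r₁ * r₂ ∈ Subgroup.normalizer (T : Set G) := by
  by_contra hcon
  obtain ⟨x, hxR, hx1⟩ := hx
  apply hx1
  by_cases hxN : x ∈ Subgroup.normalizer (T : Set G)
  · have i1 := h.invert ht₀ ht₀N hr₁ hr₁N hxR hxN
    have i2 := h.invert ht₀ ht₀N hr₂ hr₂N hxR hxN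
    have i3 := h.invert ht₀ ht₀N (R.mul_mem hr₁ hr₂) hcon hxR hxN
    have s1 := h.r_sq hr₁ ht₀ hr₁N ht₀N
    have s2 := h.r_sq hr₂ ht₀ hr₂N ht₀N
    have i4 : r₁ * x⁻¹ * r₁ = x := by
      rw [← i1]
      calc r₁ * (r₁ * x * r₁) * r₁ = (r₁ * r₁) * x * (r₁ * r₁) := by group
        _ = x := by rw [s1]; group
    have s3 := h.r_sq (R.mul_mem hr₁ hr₂) ht₀ hcon ht₀N
    have e1 : r₁⁻¹ = r₁ := inv_eq_of_mul_eq_one_left s1
    have e2 : r₂⁻¹ = r₂ := inv_eq_of_mul_eq_one_left s2
    have e3 : (r₁ * r₂)⁻¹ = r₁ * r₂ := inv_eq_of_mul_eq_one_left s3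
    have e4 : r₁ * r₂ = r₂ * r₁ := by
      rw [← e3, mul_inv_rev, e1, e2]
    have i5 : x⁻¹ = x := by
      calc x⁻¹ = r₁ * r₂ * x * (r₁ * r₂) := i3.symm
        _ = r₁ * r₂ * x * (r₂ * r₁) := congrArg (r₁ * r₂ * x * ·) e4
        _ = r₁ * (r₂ * x * r₂) * r₁ := by group
        _ = r₁ * x⁻¹ * r₁ := by rw [i2]
        _ = x := i4
    calc x * x = x⁻¹ * x := by rw [i5]
      _ = 1 := inv_mul_cancel x
  · exact h.r_sq hxR ht₀ hxN ht₀N

/-- One step of the chain: from an involution `a` of `R ∩ N(T)`, and `t ∈ T \ N(R)`, produce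
the involution `u = [t,a]` of `T ∩ N(R)`. -/
theorem step (h : PairData R T) {r₀ t : G} (hr₀ : r₀ ∈ R)
    (hr₀N : r₀ ∉ Subgroup.normalizer (T : Set G)) (ht : t ∈ T)
    (htN : t ∉ Subgroup.normalizer (R : Set G)) (hy : ∃ y ∈ T, y * y ≠ 1) {a : G} (ha : a ∈ R)
    (haN : a ∈ Subgroup.normalizer (T : Set G)) (ha2 : a * a = 1) (ha1 : a ≠ 1) :
    ∃ u ∈ T, u ∈ Subgroup.normalizer (R : Set G) ∧ u ≠ 1 ∧ u * u = 1 ∧ t * a * t = u * a := by
  have hs := h.t_sq hr₀ ht hr₀N htN
  have ti : t⁻¹ = t := inv_eq_of_mul_eq_one_left hs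
  have ai : a⁻¹ = a := inv_eq_of_mul_eq_one_left ha2
  have hat : a * t * a⁻¹ ∈ T := (Subgroup.mem_normalizer_iff.mp haN t).mp ht
  have haRN : a ∈ Subgroup.normalizer (R : Set G) := Subgroup.le_normalizer ha
  have hatN : a * t * a⁻¹ ∉ Subgroup.normalizer (R : Set G) := by
    intro hh
    apply htN
    have : t = a⁻¹ * (a * t * a⁻¹) * a := by group
    rw [this]
    exact Subgroup.mul_mem _ (Subgroup.mul_mem _ (Subgroup.inv_mem _ haRN) hh) haRN
  have huN := h.swap.prod_mem hr₀ hr₀N hy ht hat htN hatN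
  refine ⟨t * (a * t * a⁻¹), T.mul_mem ht hat, huN, ?_, ?_, ?_⟩
  · intro h1
    have h2 : t * a = a * t := by
      have h3 : a * t * a⁻¹ = t⁻¹ := eq_inv_of_mul_eq_one_right h1
      rw [ti] at h3
      calc t * a = (a * t * a⁻¹) * a := by rw [h3]
        _ = a * t := by group
    exact ha1 (h.F2 t ht htN a ha h2)
  · have hcomm : (t * (a * t * a⁻¹)) * a = a * (t * (a * t * a⁻¹)) :=
      (commute_of_normalizing h.disj ha (T.mul_mem ht hat) haN huN).symm
    have e1 : t * a * t = (t * (a * t * a⁻¹)) * a := by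
      rw [ai]; simp only [mul_assoc]; rw [ha2, mul_one]
    have e2 : (t * a * t) * (t * a * t) = 1 := by
      calc (t * a * t) * (t * a * t) = t * a * (t * t) * a * t := by group
        _ = t * (a * a) * t := by rw [hs]; group
        _ = 1 := by rw [ha2, mul_one, hs]
    rw [e1] at e2
    set u := t * (a * t * a⁻¹) with hu
    calc u * u = (u * a) * (a * u) := by
          simp only [mul_assoc]; rw [← mul_assoc a a u, ha2, one_mul]
      _ = (u * a) * (u * a) := by rw [hcomm]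
      _ = 1 := e2
  · rw [ai]; simp only [mul_assoc]; rw [ha2, mul_one]

/-- Main theorem on pairs: it is impossible that neither subgroup normalizes the other, when both
have elements of square different from 1. -/
theorem core (h : PairData R T) (hx : ∃ x ∈ R, x * x ≠ 1) (hy : ∃ y ∈ T, y * y ≠ 1)
    {r t : G} (hr : r ∈ R) (hrN : r ∉ Subgroup.normalizer (T : Set G)) (ht : t ∈ T)
    (htN : t ∉ Subgroup.normalizer (R : Set G)) : False := by
  obtain ⟨x, hxR, hx1⟩ := hx
  have hxN : x ∈ Subgroup.normalizer (T : Set G) := by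
    by_contra hh
    exact hx1 (h.r_sq hxR ht hh htN)
  -- the involution `z` in `⟨x⟩`
  have hz : ∃ z ∈ R, z ∈ Subgroup.normalizer (T : Set G) ∧ z * z = 1 ∧ z ≠ 1 := by
    obtain ⟨a, ha⟩ := IsPGroup.iff_orderOf.mp h.pR ⟨x, hxR⟩
    have ha' : orderOf x = 2 ^ a := by
      rw [← ha]; exact (Subgroup.orderOf_mk x hxR).symm
    have ha0 : a ≠ 0 := by
      rintro rfl
      simp at ha'
      apply hx1
      rw [ha', one_mul]
    obtain ⟨b, rfl⟩ := Nat.exists_eq_succ_of_ne_zero ha0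
    refine ⟨x ^ 2 ^ b, R.pow_mem hxR _, Subgroup.pow_mem _ hxN _, ?_, ?_⟩
    · rw [← pow_add, ← two_mul, ← pow_succ', ← ha', pow_orderOf_eq_one]
    · intro h1
      have h2 := orderOf_dvd_of_pow_eq_one h1
      rw [ha'] at h2
      have := Nat.le_of_dvd (by positivity) h2
      rw [pow_succ] at this
      have : 0 < 2 ^ b := by positivity
      omega
  obtain ⟨z, hzR, hzN, hz2, hz1⟩ := hz
  have hx' : ∃ x ∈ R, x * x ≠ 1 := ⟨x, hxR, hx1⟩
  have hrs := h.r_sq hr ht hrN htN
  have hts := h.t_sq hr ht hrN htN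
  have ri : r⁻¹ = r := inv_eq_of_mul_eq_one_left hrs
  have ti : t⁻¹ = t := inv_eq_of_mul_eq_one_left hts
  obtain ⟨u, huT, huN, hu1, hu2, hu⟩ := h.step hr hrN ht htN hy hzR hzN hz2 hz1
  obtain ⟨w, hwR, hwN, hw1, hw2, hw⟩ := h.swap.step ht htN hr hrN hx' huT huN hu2 hu1
  obtain ⟨v, hvT, hvN, hv1, hv2, hv⟩ := h.step hr hrN ht htN hy hwR hwN hw2 hw1
  obtain ⟨w₂, hw₂R, hw₂N, hw₂1, hw₂2, hw₂⟩ := h.swap.step ht htN hr hrN hx' hvT hvN hv2 hv1
  have inv_of_sq : ∀ {a : G}, a * a = 1 → a⁻¹ = a := fun h => inv_eq_of_mul_eq_one_left h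
  -- `r` fixes involutions of `R ∩ N(T)`
  have rfix : ∀ a ∈ R, a ∈ Subgroup.normalizer (T : Set G) → a * a = 1 → r * a * r = a := by
    intro a ha haN ha2
    rw [h.invert ht htN hr hrN ha haN, inv_of_sq ha2]
  have tfix : ∀ a ∈ T, a ∈ Subgroup.normalizer (R : Set G) → a * a = 1 → t * a * t = a := by
    intro a ha haN ha2
    rw [h.swap.invert hr hrN ht htN ha haN, inv_of_sq ha2]
  have cross : ∀ a ∈ R, a ∈ Subgroup.normalizer (T : Set G) →
      ∀ b ∈ T, b ∈ Subgroup.normalizer (R : Set G) → a * b = b * a := fun a ha haN b hb hbN =>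
    commute_of_normalizing h.disj ha hb haN hbN
  -- `R ∩ N(T)` is abelian
  have rab : ∀ a ∈ R, a ∈ Subgroup.normalizer (T : Set G) → ∀ b ∈ R,
      b ∈ Subgroup.normalizer (T : Set G) → a * b = b * a := by
    intro a ha haN b hb hbN
    have i1 := h.invert ht htN hr hrN ha haN
    have i2 := h.invert ht htN hr hrN hb hbN
    have i3 := h.invert ht htN hr hrN (R.mul_mem ha hb) (Subgroup.mul_mem _ haN hbN)
    have e : (a * b)⁻¹ = a⁻¹ * b⁻¹ := by
      rw [← i3, ← i1, ← i2]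
      calc r * (a * b) * r = r * a * (r * r) * b * r := by rw [hrs]; group
        _ = r * a * r * (r * b * r) := by group
    have e2 : b⁻¹ * a⁻¹ = a⁻¹ * b⁻¹ := by rw [← mul_inv_rev, e]
    have e3 : (b * a)⁻¹ = (a * b)⁻¹ := by rw [mul_inv_rev, mul_inv_rev, e2]
    exact (inv_inj.mp e3).symm
  -- the computation
  have E2 : r * (u * z) * r = w * u * z := by
    calc r * (u * z) * r = (r * u * r) * (r * z * r) := by
          calc r * (u * z) * r = r * u * (r * r) * z * r := by rw [hrs]; group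
            _ = (r * u * r) * (r * z * r) := by group
      _ = w * u * z := by rw [hw, rfix z hzR hzN hz2]
  have E3 : t * (w * u * z) * t = v * w * z := by
    calc t * (w * u * z) * t = (t * w * t) * (t * u * t) * (t * z * t) := by
          calc t * (w * u * z) * t = t * w * (t * t) * u * (t * t) * z * t := by rw [hts]; group
            _ = (t * w * t) * (t * u * t) * (t * z * t) := by group
      _ = (v * w) * u * (u * z) := by rw [hv, tfix u huT huN hu2, hu]
      _ = v * w * (u * u) * z := by group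
      _ = v * w * z := by rw [hu2]; group
  have E4 : r * (v * w * z) * r = w₂ * v * w * z := by
    calc r * (v * w * z) * r = (r * v * r) * (r * w * r) * (r * z * r) := by
          calc r * (v * w * z) * r = r * v * (r * r) * w * (r * r) * z * r := by rw [hrs]; group
            _ = (r * v * r) * (r * w * r) * (r * z * r) := by group
      _ = w₂ * v * w * z := by rw [hw₂, rfix w hwR hwN hw2, rfix z hzR hzN hz2]
  -- `c = (rt)²` commutes with `r`
  set c := r * t * r⁻¹ * t⁻¹ with hc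
  have hcr : r * c = c * r := h.c_comm_r hr ht htN
  have hc' : c = r * t * r * t := by rw [hc, ri, ti]
  have hcz : c * z * c⁻¹ = w₂ * v * w * z := by
    have : c * z * c⁻¹ = r * (t * (r * (t * z * t) * r) * t) * r := by
      rw [hc', mul_inv_rev, mul_inv_rev, mul_inv_rev, ri, ti]
      group
    rw [this, hu, E2, E3, E4]
  set y := w₂ * w * z with hy'
  have hyR : y ∈ R := R.mul_mem (R.mul_mem hw₂R hwR) hzR
  have hyN : y ∈ Subgroup.normalizer (T : Set G) :=
    Subgroup.mul_mem _ (Subgroup.mul_mem _ hw₂N hwN) hzN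
  have hy2 : y * y = 1 := by
    have c1 := rab w₂ hw₂R hw₂N w hwR hwN
    have c2 := rab w₂ hw₂R hw₂N z hzR hzN
    have c3 := rab w hwR hwN z hzR hzN
    calc y * y = (w₂ * w * z) * (w₂ * w * z) := rfl
      _ = w₂ * w * (z * w₂) * w * z := by group
      _ = w₂ * w * (w₂ * z) * w * z := by rw [c2]
      _ = w₂ * (w * w₂) * (z * w) * z := by group
      _ = w₂ * (w₂ * w) * (w * z) * z := by rw [c1, c3]
      _ = (w₂ * w₂) * (w * w) * (z * z) := by group
      _ = 1 := by rw [hw₂2, hw2, hz2]; group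
  have hX : w₂ * v * w * z = v * y := by
    rw [cross w₂ hw₂R hw₂N v hvT hvN, hy']; group
  have hfix : r * (v * y) * r = v * y := by
    have hrc : Commute r c := hcr
    have hrz : Commute r z := by
      show r * z = z * r
      have := rfix z hzR hzN hz2
      calc r * z = r * z * (r * r) := by rw [hrs, mul_one]
        _ = (r * z * r) * r := by group
        _ = z * r := by rw [this]
    have hX' : Commute r (c * z * c⁻¹) := (hrc.mul_right hrz).mul_right hrc.inv_right
    have h1 : r * (c * z * c⁻¹) * r = c * z * c⁻¹ := by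
      rw [hX'.eq, mul_assoc, hrs, mul_one]
    rwa [hcz, hX] at h1
  have hfix2 : r * v * r = v := by
    have h1 : r * (v * y) * r = (r * v * r) * (r * y * r) := by
      calc r * (v * y) * r = r * v * (r * r) * y * r := by rw [hrs]; group
        _ = (r * v * r) * (r * y * r) := by group
    rw [h1, rfix y hyR hyN hy2] at hfix
    exact mul_right_cancel hfix
  have hcomm : r * v = v * r := by
    calc r * v = (r * v * r) * r := by
          calc r * v = r * v * (r * r) := by rw [hrs, mul_one]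
            _ = (r * v * r) * r := by group
      _ = v * r := by rw [hfix2]
  exact hv1 (h.F1 r hr hrN v hvT hcomm)

end PairData

end Cfsg.Agent.Lib.TwoFusion
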