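import Mathlib
import Cfsg.Agent.Lib.TwoFusion.TIPair

/-!
# Families of TI-subgroups inside a 2-subgroup: elementwise commutation (ambient form of S1782)
-/

set_option autoImplicit false

namespace Cfsg.Agent.Lib.TwoFusion

variable {X : Type*} [Group X]

theorem commute_family [Finite X] (P : Subgroup X) (hP : IsPGroup 2 P) (Δ : Set (Subgroup X))
    (hle : ∀ R ∈ Δ, R ≤ P)
    (hinv : ∀ s ∈ P, ∀ R ∈ Δ, R.map (MulAut.conj s).toMonoidHom ∈ Δ)
    (hsq : ∀ R ∈ Δ, ∃ x ∈ R, x * x ≠ 1)
    (hord : ∀ R ∈ Δ, ∀ T ∈ Δ, Nat.card ↥R = Nat.card ↥T)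
    (hti : ∀ R ∈ Δ, ∀ T ∈ Δ, R = T ∨ R ⊓ T = ⊥) :
    ∀ R ∈ Δ, ∀ T ∈ Δ, R ≠ T → ⁅R, T⁆ = ⊥ := by
  classical
  haveI : Fact (Nat.Prime 2) := ⟨Nat.prime_two⟩
  have hS : ∀ {R : Subgroup X}, R ≤ P → IsPGroup 2 ↥R := fun h => hP.to_le h
  have hnormTI : ∀ A ∈ Δ, ∀ s ∈ P, s ∉ Subgroup.normalizer (A : Set X) →
      ∀ x ∈ A, s * x = x * s → x = 1 := by
    intro A hA s hsP hs x hx hsx
    rcases hti _ (hinv s hsP A hA) A hA with h1 | h1
    · exact absurd (mem_normalizer_of_conj_eq h1) hs
    · have hin : x ∈ A.map (MulAut.conj s).toMonoidHom ⊓ A := by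
        refine Subgroup.mem_inf.mpr ⟨?_, hx⟩
        rw [mem_conj_map]
        have : s⁻¹ * x * s = x := by
          rw [mul_assoc, ← hsx]; group
        rwa [this]
      rw [h1] at hin
      simpa using hin
  have hTIconj : ∀ A ∈ Δ, ∀ s ∈ P, A.map (MulAut.conj s).toMonoidHom = A ∨
      A.map (MulAut.conj s).toMonoidHom ⊓ A = ⊥ := fun A hA s hs => hti _ (hinv s hs A hA) A hA
  have main : ∀ n : ℕ, ∀ R ∈ Δ, ∀ T ∈ Δ, R ≠ T → Nat.card ↥(R ⊔ T) ≤ n → ⁅R, T⁆ = ⊥ := by
    intro n
    induction n with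
    | zero =>
      intro R _ T _ _ hn
      exfalso
      have : 0 < Nat.card ↥(R ⊔ T) := Nat.card_pos
      omega
    | succ n ih =>
      intro R hR T hT hRT hn
      have key : ∀ A ∈ Δ, ∀ B ∈ Δ, A ≠ B → Nat.card ↥(A ⊔ B) ≤ n + 1 →
          ∀ s ∈ B, s ∉ Subgroup.normalizer (A : Set X) → ∀ x ∈ A, ∀ y ∈ A,
            x * (s * y * s⁻¹) = (s * y * s⁻¹) * x := by
        intro A hA B hB hAB hcard s hs hsN x hx y hy
        have hX : IsPGroup 2 ↥(A ⊔ B) := hS (sup_le (hle A hA) (hle B hB))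
        have hne : A ≠ A ⊔ B := by
          intro h
          have hBA : B ≤ A := by rw [h]; exact le_sup_right
          exact hAB (Subgroup.eq_of_le_of_card_ge hBA (le_of_eq (hord A hA B hB))).symm
        obtain ⟨M, hAM, hMX, hMne, hXM⟩ := exists_normal_ne hX le_sup_left hne
        have hAs : A.map (MulAut.conj s).toMonoidHom ≤ M := by
          rintro _ ⟨a, ha, rfl⟩
          exact (Subgroup.mem_normalizer_iff.mp (hXM ((le_sup_right : B ≤ A ⊔ B) hs)) a).mp (hAM ha)
        have hsup : A ⊔ A.map (MulAut.conj s).toMonoidHom ≤ M := sup_le hAM hAs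
        have hcardlt : Nat.card ↥(A ⊔ A.map (MulAut.conj s).toMonoidHom) ≤ n := by
          have h1 : Nat.card M ≤ Nat.card ↥(A ⊔ B) := Subgroup.card_le_of_le hMX
          have h2 : Nat.card M ≠ Nat.card ↥(A ⊔ B) := by
            intro h
            exact hMne (Subgroup.eq_of_le_of_card_ge hMX (le_of_eq h.symm))
          have h3 := Subgroup.card_le_of_le hsup
          omega
        have hne2 : A ≠ A.map (MulAut.conj s).toMonoidHom := by
          intro h
          exact hsN (mem_normalizer_of_conj_eq h.symm)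
        have hc := ih A hA _ (hinv s (hle B hB hs) A hA) hne2 hcardlt
        have hmem : s * y * s⁻¹ ∈ A.map (MulAut.conj s).toMonoidHom := conj_mem_conj_map hy
        rw [Subgroup.commutator_eq_bot_iff_le_centralizer] at hc
        exact ((Subgroup.mem_centralizer_iff.mp (hc hx)) _ hmem).symm
      have hdisj : R ⊓ T = ⊥ := (hti R hR T hT).resolve_left hRT
      have hd : PairData R T :=
        { disj := hdisj
          F1 := fun r hr hrN x hx hc => hnormTI T hT r (hle R hR hr) hrN x hx hc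
          F2 := fun t ht htN x hx hc => hnormTI R hR t (hle T hT ht) htN x hx hc
          C1 := fun r hr hrN x hx y hy => key T hT R hR hRT.symm (by rwa [sup_comm]) r hr hrN x hx y hy
          C2 := fun t ht htN x hx y hy => key R hR T hT hRT hn t ht htN x hx y hy
          pR := hS (hle R hR)
          pT := hS (hle T hT) }
      by_cases h1 : R ≤ Subgroup.normalizer (T : Set X)
      · have := commutator_eq_bot_of_TI (p := 2) (A := T) (B := R)
          (hS (hle T hT)) (hS (hle R hR)) (le_of_eq (hord T hT R hR))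
          (by rw [inf_comm]; exact hdisj) h1 (fun a ha => hTIconj R hR a (hle T hT ha))
        rw [Subgroup.commutator_comm]
        exact this
      by_cases h2 : T ≤ Subgroup.normalizer (R : Set X)
      · exact commutator_eq_bot_of_TI (p := 2) (A := R) (B := T)
          (hS (hle R hR)) (hS (hle T hT)) (le_of_eq (hord R hR T hT))
          hdisj h2 (fun a ha => hTIconj T hT a (hle R hR ha))
      exfalso
      obtain ⟨r, hr, hrN⟩ := SetLike.not_le_iff_exists.mp h1
      obtain ⟨t, ht, htN⟩ := SetLike.not_le_iff_exists.mp h2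
      exact hd.core (hsq R hR) (hsq T hT) hr hrN ht htN
  intro R hR T hT hRT
  exact main _ R hR T hT hRT le_rfl

end Cfsg.Agent.Lib.TwoFusion
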